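import Cfsg.Agent.FStar.PComp
import Cfsg.Agent.H23.ExtLayer
import Cfsg.Agent.S0542

/-!
# 2-components are normal in the extended 2-layer (owner: helper23)
-/

set_option autoImplicit false

namespace Cfsg.Agent.H23

open Subgroup Cfsg

universe u

theorem centralizer_im_le_normalizer {X : Type u} [Group X] [Finite X] {K : Subgroup X} (hK : IsPComponent 2 K)
    (T : Sylow 2 ↥(layN X)) :
    Subgroup.centralizer ((im T : Subgroup X) : Set X) ≤ Subgroup.normalizer (K : Set X) := by
  classical
  have : Fact (Nat.Prime 2) := ⟨Nat.prime_two⟩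
  intro g hg
  by_contra hcon
  have hK' : IsPComponent 2 (cj g K) := isPComponent_cj g hK
  have hne : cj g K ≠ K := fun h => hcon (mem_normalizer_of_cj_eq h)
  set π := FStar.piMap 2 X with hπ
  have hcomp : IsComponent (K.map π) := hK.2.1
  have hcomp' : IsComponent ((cj g K).map π) := hK'.2.1
  have hne' : K.map π ≠ (cj g K).map π := by
    intro h
    obtain ⟨K₀, _, huniq⟩ := FStar.isPComponent_existsUnique hcomp
    exact hne ((huniq _ ⟨hK', h.symm⟩).trans (huniq _ ⟨hK, rfl⟩).symm)
  have hcom := FStar.component_commute hcomp hcomp' hne'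
  have hKN : K ≤ layN X := (FStar.pComponent_le_pLayer hK).trans le_sup_left
  have hsub : (K.subgroupOf (layN X)).IsSubnormal := hK.1.subgroupOf
  obtain ⟨Q, hQ⟩ := S0542.result 2 (K.subgroupOf (layN X)) hsub T
  -- the map onto the component
  let f : ↥(K.subgroupOf (layN X)) →* ↥(K.map π) :=
    { toFun := fun x => ⟨π ((x : ↥(layN X)) : X), mem_map_of_mem π (mem_subgroupOf.1 x.2)⟩
      map_one' := by apply Subtype.ext; simp
      map_mul' := fun x y => by apply Subtype.ext; simp }
  have hf : Function.Surjective f := by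
    rintro ⟨z, hz⟩
    obtain ⟨k, hk, rfl⟩ := hz
    exact ⟨⟨⟨k, hKN hk⟩, mem_subgroupOf.2 hk⟩, rfl⟩
  have hP : ((Q.mapSurjective hf : Sylow 2 ↥(K.map π)) : Subgroup ↥(K.map π)) ≤ Subgroup.center ↥(K.map π) := by
    rw [Sylow.coe_mapSurjective]
    rintro _ ⟨x, hx, rfl⟩
    rw [hQ] at hx
    have hxT : (x : ↥(layN X)) ∈ (T : Subgroup ↥(layN X)) := mem_subgroupOf.1 hx
    have hxim : ((x : ↥(layN X)) : X) ∈ im T := ⟨_, hxT, rfl⟩
    have hxg := mem_centralizer_iff.1 hg _ hxim
    have hxK : ((x : ↥(layN X)) : X) ∈ K := mem_subgroupOf.1 x.2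
    have hxK' : ((x : ↥(layN X)) : X) ∈ cj g K := by
      rw [mem_cj]
      have e : g⁻¹ * ((x : ↥(layN X)) : X) * g = ((x : ↥(layN X)) : X) := by
        rw [mul_assoc, hxg, inv_mul_cancel_left]
      rw [e]; exact hxK
    rw [mem_center_iff]
    rintro ⟨z, hz⟩
    apply Subtype.ext
    have h1 : π ((x : ↥(layN X)) : X) ∈ (cj g K).map π := mem_map_of_mem π hxK'
    have h2 := commutator_mem_commutator hz h1
    rw [hcom, mem_bot, commutatorElement_eq_one_iff_mul_comm] at h2
    exact h2
  have hcop := FStar.coprime_card_of_sylow_le_center hcomp.2.1 _ hP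
  have hbot := FStar.eq_bot_of_coprime_of_isSubnormal (p := 2) (Solv.pPrimeCore_quotient_pPrimeCore 2) hcomp.1 hcop
  have hsim := hcomp.2.2
  have hnt : Nontrivial (↥(K.map π) ⧸ Subgroup.center ↥(K.map π)) := hsim.toNontrivial
  rw [hbot] at hnt
  obtain ⟨a, b, hab⟩ := hnt
  apply hab
  induction a using QuotientGroup.induction_on with
  | H a =>
  induction b using QuotientGroup.induction_on with
  | H b =>
  rw [Subsingleton.elim a b]

theorem pComponent_normal_ext {X : Type u} [Group X] [Finite X] (K : Subgroup X) (hK : IsPComponent 2 K) :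
    K ≤ extendedTwoLayer X ∧ (K.subgroupOf (extendedTwoLayer X)).Normal := by
  have : Fact (Nat.Prime 2) := ⟨Nat.prime_two⟩
  have hle : K ≤ extendedTwoLayer X := by
    rw [extendedTwoLayer_eq]
    exact (FStar.pComponent_le_pLayer hK).trans (le_sup_left.trans le_sup_left)
  refine ⟨hle, ?_⟩
  have hn : extendedTwoLayer X ≤ Subgroup.normalizer (K : Set X) := by
    rw [extendedTwoLayer_eq]
    refine sup_le (sup_le ?_ ?_) (iSup_le fun T => ?_)
    · exact FStar.pLayer_le_layerPre.trans (FStar.layerPre_le_normalizer hK)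
    · refine le_trans ?_ (FStar.layerPre_le_normalizer hK)
      intro x hx
      rw [FStar.layerPre, mem_comap]
      have h1 : FStar.piMap 2 X x = 1 := (QuotientGroup.eq_one_iff x).2 hx
      rw [h1]
      exact one_mem _
    · exact (coreIn_le 2 _).trans (centralizer_im_le_normalizer hK T)
  exact normal_subgroupOf_of_le_normalizer hn

end Cfsg.Agent.H23
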