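import Cfsg.Agent.S0519
import Cfsg.Agent.MaxClass.UniqueOrderP
import Cfsg.Agent.Frob.Action
import Cfsg.Agent.H23.NormalRankTwo
import Cfsg.Agent.Cyc.PQE

set_option autoImplicit false
open Cfsg

namespace Cfsg.Agent.H23.HT

section Basic

variable {q : ℕ} [hq : Fact q.Prime] {V : Type*} [AddCommGroup V] [Module (ZMod q) V]
  {G : Type*} [Group G] (ρ : G →* (V ≃ₗ[ZMod q] V))

/-- stabilizer of a vector -/
def stab (v : V) : Subgroup G where
  carrier := {g | ρ g v = v}
  one_mem' := by simp
  mul_mem' := by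
    intro a b ha hb
    show ρ (a * b) v = v
    rw [map_mul, LinearEquiv.mul_apply, show ρ b v = v from hb, show ρ a v = v from ha]
  inv_mem' := by
    intro a ha
    show ρ a⁻¹ v = v
    have h1 : ρ a v = v := ha
    calc ρ a⁻¹ v = ρ a⁻¹ (ρ a v) := by rw [h1]
      _ = (ρ (a⁻¹ * a)) v := by rw [map_mul, LinearEquiv.mul_apply]
      _ = v := by simp

theorem mem_stab {v : V} {g : G} : g ∈ stab ρ v ↔ ρ g v = v := Iff.rfl

theorem mul_app (a b : G) (v : V) : ρ (a * b) v = ρ a (ρ b v) := by
  rw [map_mul, LinearEquiv.mul_apply]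

theorem inv_app (a : G) (v : V) : ρ a⁻¹ (ρ a v) = v := by
  rw [← mul_app]; simp

theorem app_inv (a : G) (v : V) : ρ a (ρ a⁻¹ v) = v := by
  rw [← mul_app]; simp

theorem orbit_card [Finite G] (v : V) :
    Nat.card {u : V | ∃ g : G, ρ g v = u} * Nat.card (stab ρ v) = Nat.card G := by
  let _ : MulAction G V := MulAction.compHom V ρ
  have h1 := MulAction.index_stabilizer G v
  have h2 : MulAction.stabilizer G v = stab ρ v := by
    ext g; exact Iff.rfl
  have h3 : MulAction.orbit G v = {u : V | ∃ g : G, ρ g v = u} := by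
    ext u
    exact Iff.rfl
  rw [h2, h3] at h1
  rw [← Subgroup.card_mul_index (stab ρ v), h1, mul_comm]
  rfl

/-- half-transitivity: equal stabilizer orders -/
def Half : Prop := ∀ v w : V, v ≠ 0 → w ≠ 0 → Nat.card (stab ρ v) = Nat.card (stab ρ w)

theorem half_of_orbit [Finite G] [Finite V]
    (hhalf : ∀ v w : V, v ≠ 0 → w ≠ 0 →
      Nat.card {u : V | ∃ g : G, ρ g v = u} = Nat.card {u : V | ∃ g : G, ρ g w = u}) : Half ρ := by
  intro v w hv hw
  have h1 := orbit_card ρ v
  have h2 := orbit_card ρ w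
  rw [← hhalf v w hv hw, ← h1] at h2
  have h3 : 0 < Nat.card {u : V | ∃ g : G, ρ g v = u} := by
    have : Nonempty {u : V | ∃ g : G, ρ g v = u} := ⟨⟨v, 1, by simp⟩⟩
    exact Nat.card_pos
  exact (Nat.eq_of_mul_eq_mul_left h3 h2).symm

open Classical in
/-- averaging operator -/
noncomputable def avg [Finite G] (N : Subgroup G) (v : V) : V :=
  letI := Fintype.ofFinite N
  ((Nat.card N : ZMod q))⁻¹ • ∑ n : N, ρ (n : G) v

theorem avg_add [Finite G] (N : Subgroup G) (v w : V) : avg ρ N (v + w) = avg ρ N v + avg ρ N w := by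
  classical
  unfold avg
  simp only [map_add, Finset.sum_add_distrib, smul_add]

theorem avg_fix [Finite G] (N : Subgroup G) (v : V) {n : G} (hn : n ∈ N) : ρ n (avg ρ N v) = avg ρ N v := by
  classical
  unfold avg
  let _ := Fintype.ofFinite N
  rw [map_smul, map_sum]
  congr 1
  refine Fintype.sum_equiv (Equiv.mulLeft (⟨n, hn⟩ : N)) _ _ ?_
  intro x
  simp

theorem avg_of_fix [Finite G] (N : Subgroup G) (hN : (Nat.card N : ZMod q) ≠ 0) {v : V}
    (hv : ∀ n ∈ N, ρ n v = v) : avg ρ N v = v := by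
  classical
  unfold avg
  let _ := Fintype.ofFinite N
  have h1 : ∑ n : N, ρ (n : G) v = ∑ _n : N, v := Finset.sum_congr rfl (fun n _ => hv (n : G) n.2)
  rw [h1, Finset.sum_const, Finset.card_univ,
    ← Nat.card_eq_fintype_card, ← Nat.cast_smul_eq_nsmul (ZMod q), smul_smul, inv_mul_cancel₀ hN,
    one_smul]

theorem avg_equiv [Finite G] (N : Subgroup G) (v : V) (g : G) (hg : ∀ n : G, n ∈ N ↔ g * n * g⁻¹ ∈ N) :
    ρ g (avg ρ N v) = avg ρ N (ρ g v) := by
  classical
  unfold avg
  let _ := Fintype.ofFinite N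
  rw [map_smul, map_sum]
  congr 1
  refine Fintype.sum_equiv
    { toFun := fun n : N => (⟨g * n * g⁻¹, (hg n).1 n.2⟩ : N)
      invFun := fun n : N => (⟨g⁻¹ * n * g, (hg _).2 (by
        have : g * (g⁻¹ * (n : G) * g) * g⁻¹ = n := by group
        rw [this]; exact n.2)⟩ : N)
      left_inv := fun n => Subtype.ext (by simp; group)
      right_inv := fun n => Subtype.ext (by simp; group) } _ _ ?_
  intro x
  simp only [Equiv.coe_fn_mk]
  rw [← mul_app, ← mul_app]
  congr 2
  group

theorem card_cast_ne [Finite G] (hG : (Nat.card G : ZMod q) ≠ 0) (N : Subgroup G) :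
    (Nat.card N : ZMod q) ≠ 0 := by
  intro h
  apply hG
  rw [← Subgroup.card_mul_index N, Nat.cast_mul, h, zero_mul]

/-- a nontrivial normal subgroup has no nonzero fixed vector -/
theorem normal_fix_zero [Finite G] (hρ : Function.Injective ρ) (hG : (Nat.card G : ZMod q) ≠ 0)
    (hh : Half ρ) (N : Subgroup G) [hN : N.Normal] (hne : N ≠ ⊥) {w : V}
    (hw : ∀ n ∈ N, ρ n w = w) : w = 0 := by
  by_contra hw0
  have hNc := card_cast_ne hG N
  have hnor : ∀ g n : G, n ∈ N ↔ g * n * g⁻¹ ∈ N := by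
    intro g n
    exact ⟨fun h => hN.conj_mem n h g, fun h => by
      have := hN.conj_mem _ h g⁻¹
      have e : g⁻¹ * (g * n * g⁻¹) * g⁻¹⁻¹ = n := by group
      rwa [e] at this⟩
  obtain ⟨n0, hn0⟩ := Subgroup.ne_bot_iff_exists_ne_one.1 hne
  have h1 : ∃ v, ρ (n0 : G) v ≠ v := by
    by_contra hcon
    push Not at hcon
    apply hn0
    apply Subtype.ext
    apply hρ
    rw [OneMemClass.coe_one, map_one]
    ext v
    exact hcon v
  obtain ⟨v, hv⟩ := h1
  set u := v - avg ρ N v with hu
  have hu0 : u ≠ 0 := by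
    intro h
    apply hv
    have h2 : v = avg ρ N v := sub_eq_zero.1 h
    rw [h2]
    exact avg_fix ρ N v n0.2
  have hew : avg ρ N w = w := avg_of_fix ρ N hNc hw
  have heu : avg ρ N u = 0 := by
    have h2 : avg ρ N v = avg ρ N u + avg ρ N (avg ρ N v) := by
      rw [← avg_add, hu, sub_add_cancel]
    rw [avg_of_fix ρ N hNc (fun n hn => avg_fix ρ N v hn)] at h2
    exact left_eq_add.1 (by rw [add_comm] at h2; exact h2)
  have hwu : w + u ≠ 0 := by
    intro h
    have h2 := congrArg (avg ρ N) h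
    rw [avg_add, hew, heu, add_zero] at h2
    apply hw0
    rw [h2]
    exact avg_of_fix ρ N hNc (fun n _ => by simp)
  have hle : stab ρ (w + u) ≤ stab ρ w := by
    intro g hg
    rw [mem_stab] at hg ⊢
    have h2 := congrArg (avg ρ N) hg
    rw [← avg_equiv ρ N _ g (hnor g), avg_add, hew, heu, add_zero] at h2
    exact h2
  have heq : stab ρ (w + u) = stab ρ w :=
    Subgroup.eq_of_le_of_card_ge hle (le_of_eq (hh w (w + u) hw0 hwu))
  apply hu0
  rw [← heu]
  symm
  apply avg_of_fix ρ N hNc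
  intro n hn
  have h2 : n ∈ stab ρ (w + u) := by rw [heq]; exact hw n hn
  rw [mem_stab, map_add, hw n hn] at h2
  exact add_left_cancel h2

/-- linear action as automorphisms of the multiplicative group -/
def toAut : G →* MulAut (Multiplicative V) where
  toFun g := AddEquiv.toMultiplicative (ρ g).toAddEquiv
  map_one' := by ext v; simp
  map_mul' a b := by
    ext v
    show Multiplicative.ofAdd (ρ (a * b) v.toAdd) = Multiplicative.ofAdd (ρ a (ρ b v.toAdd))
    rw [mul_app]

theorem toAut_fpf (hs : ∀ v : V, v ≠ 0 → ∀ g : G, ρ g v = v → g = 1) :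
    Cfsg.Agent.Frob.IsFPF (toAut ρ) := by
  intro g hg w hw
  by_contra hne
  apply hg
  refine hs w.toAdd (fun h => hne ?_) g ?_
  · exact h
  · exact hw

/-- a semiregular `p`-group is cyclic or generalized quaternion -/
theorem semireg [Finite G] [Finite V] [Nontrivial V] {p : ℕ} [hp : Fact p.Prime]
    (hG : IsPGroup p G) (hs : ∀ v : V, v ≠ 0 → ∀ g : G, ρ g v = v → g = 1) :
    IsCyclic G ∨ ∃ n : ℕ, Nonempty (G ≃* QuaternionGroup n) := by
  have hab : ∀ A : Subgroup G, IsMulCommutative A → IsCyclic A := by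
    intro A hA
    apply Cfsg.Agent.Frob.isCyclic_of_isMulCommutative_of_sq
    intro r hr B hB
    exact ((toAut_fpf ρ hs).comp_injective (A.subtype.comp B.subtype)
      (A.subtype_injective.comp B.subtype_injective)).isCyclic_of_card_eq_mul hr hr hB
  by_cases htr : (⊤ : Subgroup G) = ⊥
  · left
    have : Subsingleton G := by
      constructor
      intro a b
      have ha : a ∈ (⊤ : Subgroup G) := Subgroup.mem_top a
      have hb : b ∈ (⊤ : Subgroup G) := Subgroup.mem_top b
      rw [htr, Subgroup.mem_bot] at ha hb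
      rw [ha, hb]
    infer_instance
  obtain ⟨z, -, hz, hzc⟩ := Cfsg.Agent.H23.exists_central_orderOf hG
    (N := (⊤ : Subgroup G)) inferInstance htr
  have key : ∀ H : Subgroup G, Nat.card H = p → H = Subgroup.zpowers z := by
    intro H hH
    have hHc : IsCyclic H := isCyclic_of_prime_card hH
    have hcom : ∀ x ∈ H ⊔ Subgroup.zpowers z, ∀ y ∈ H ⊔ Subgroup.zpowers z, x * y = y * x := by
      obtain ⟨h, hh⟩ := (Subgroup.isCyclic_iff_exists_zpowers_eq_top H).1 hHc
      rw [← hh]
      have hc : Commute h z := (Subgroup.mem_center_iff.1 hzc h)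
      have : IsMulCommutative (Subgroup.closure ({h, z} : Set G)) := by
        apply Subgroup.isMulCommutative_closure
        rintro x (rfl | rfl) y (rfl | rfl)
        · rfl
        · exact hc.eq
        · exact hc.symm.eq
        · rfl
      have hle : Subgroup.zpowers h ⊔ Subgroup.zpowers z ≤ Subgroup.closure ({h, z} : Set G) := by
        rw [sup_le_iff, Subgroup.zpowers_le, Subgroup.zpowers_le]
        exact ⟨Subgroup.subset_closure (by simp), Subgroup.subset_closure (by simp)⟩
      intro x hx y hy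
      exact congrArg Subtype.val (this.is_comm.comm ⟨x, hle hx⟩ ⟨y, hle hy⟩)
    have hA : IsMulCommutative (H ⊔ Subgroup.zpowers z : Subgroup G) :=
      ⟨⟨fun x y => Subtype.ext (hcom x x.2 y y.2)⟩⟩
    exact Cfsg.Agent.Cyc.eq_of_card_cyclic (hab _ hA) le_sup_left le_sup_right
      (by rw [hH, Nat.card_zpowers, hz])
  rcases Cfsg.Agent.MaxClass.cyclic_or_quaternion hG (fun H K hH hK => by
    rw [key H hH, key K hK]) with h | ⟨-, n, hn⟩
  · exact Or.inl h
  · exact Or.inr ⟨_, hn⟩

end Basic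

end Cfsg.Agent.H23.HT
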