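import Cfsg.Agent.H23.HalfTrA

set_option autoImplicit false
open Cfsg

namespace Cfsg.Agent.H23.HT

/-- a noncyclic abelian normal subgroup gives a normal elementary abelian subgroup of order `p²` -/
theorem exists_elem_sq {P : Type*} [Group P] [Finite P] {p : ℕ} [hp : Fact p.Prime]
    (hP : IsPGroup p P) (A : Subgroup P) (hAn : A.Normal) (hAc : IsMulCommutative A)
    (hnc : ¬ IsCyclic A) :
    ∃ U : Subgroup P, U.Normal ∧ U ≤ A ∧ (∀ x ∈ U, ∀ y ∈ U, x * y = y * x) ∧ (∀ x ∈ U, x ^ p = 1) ∧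
      Nat.card U = p ^ 2 := by
  have hAc' : ∀ x ∈ A, ∀ y ∈ A, x * y = y * x := fun x hx y hy =>
    congrArg Subtype.val (hAc.is_comm.comm ⟨x, hx⟩ ⟨y, hy⟩)
  let Om : Subgroup P :=
    { carrier := {x | x ∈ A ∧ x ^ p = 1}
      one_mem' := ⟨one_mem _, one_pow _⟩
      mul_mem' := by
        rintro x y ⟨hx, hx'⟩ ⟨hy, hy'⟩
        refine ⟨mul_mem hx hy, ?_⟩
        rw [(show Commute x y from hAc' x hx y hy).mul_pow, hx', hy', one_mul]
      inv_mem' := by
        rintro x ⟨hx, hx'⟩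
        exact ⟨inv_mem hx, by rw [inv_pow, hx', inv_one]⟩ }
  have hOmN : Om.Normal := by
    refine ⟨fun x hx g => ⟨hAn.conj_mem x hx.1 g, ?_⟩⟩
    rw [conj_pow, hx.2, mul_one, mul_inv_cancel]
  by_cases hbig : p ^ 2 ≤ Nat.card Om
  · obtain ⟨U, hUn, hUle, hUc⟩ := exists_normal_le_card_eq hP hOmN 2 hbig
    exact ⟨U, hUn, fun x hx => (hUle hx).1, fun x hx y hy => hAc' x (hUle hx).1 y (hUle hy).1,
      fun x hx => (hUle hx).2, hUc⟩
  exfalso
  have hOmle : Nat.card Om ≤ p := by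
    obtain ⟨k, hk⟩ := (hP.to_subgroup Om).exists_card_eq
    rw [hk] at hbig ⊢
    have : k < 2 := by
      by_contra h
      exact hbig (Nat.pow_le_pow_right hp.out.pos (not_lt.1 h))
    calc p ^ k ≤ p ^ 1 := Nat.pow_le_pow_right hp.out.pos (by omega)
      _ = p := pow_one p
  apply hnc
  let _ : CommGroup A := { (inferInstance : Group A) with
    mul_comm := fun a b => Subtype.ext (hAc' a a.2 b b.2) }
  refine isCyclic_of_card_pow_p_le (p := p) (hP.to_subgroup A) ?_
  refine le_trans ?_ hOmle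
  refine Nat.card_le_card_of_injective
    (fun x : (powMonoidHom p : A →* A).ker => (⟨((x : A) : P), (x : A).2, ?_⟩ : Om)) ?_
  · have := x.2
    rw [MonoidHom.mem_ker] at this
    exact congrArg Subtype.val this
  · intro x y hxy
    apply Subtype.ext; apply Subtype.ext
    exact congrArg (fun z : Om => (z : P)) hxy

variable {q : ℕ} [hq : Fact q.Prime] {V : Type*} [AddCommGroup V] [Module (ZMod q) V]
  {G : Type*} [Group G] (ρ : G →* (V ≃ₗ[ZMod q] V))

theorem semireg_of_normal [Finite G] (hρ : Function.Injective ρ)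
    (hG : (Nat.card G : ZMod q) ≠ 0) (hh : Half ρ) {v : V} (hv : v ≠ 0) {g : G} (hg : ρ g v = v)
    (hn : (Subgroup.zpowers g).Normal) : g = 1 := by
  by_contra hne
  apply hv
  refine normal_fix_zero ρ hρ hG hh (Subgroup.zpowers g) (by simpa using hne) ?_
  intro n hn'
  have : Subgroup.zpowers g ≤ stab ρ v := by rw [Subgroup.zpowers_le]; exact hg
  exact this hn'

/-- two independent elements of the normal `E` of order `p²` have no common fixed vector -/
theorem fix_two [Finite G] {p : ℕ} [hp : Fact p.Prime] (hρ : Function.Injective ρ)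
    (hG : (Nat.card G : ZMod q) ≠ 0) (hh : Half ρ) (E : Subgroup G) [E.Normal]
    (hE : Nat.card E = p ^ 2) {c d : G} (hc : c ∈ E) (hd : d ∈ E) (hco : orderOf c = p)
    (hdc : d ∉ Subgroup.zpowers c) {v : V} (h1 : ρ c v = v) (h2 : ρ d v = v) : v = 0 := by
  have hne : E ≠ ⊥ := by
    rintro rfl
    rw [Subgroup.card_bot] at hE
    have := hp.out.one_lt
    nlinarith
  have hK : stab ρ v ⊓ E = E := by
    have hle : stab ρ v ⊓ E ≤ E := inf_le_right
    have hdvd := Subgroup.card_dvd_of_le hle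
    rw [hE] at hdvd
    obtain ⟨k, hk, hk'⟩ := (Nat.dvd_prime_pow hp.out).1 hdvd
    have hz : Subgroup.zpowers c < stab ρ v ⊓ E := by
      refine lt_of_le_of_ne (Subgroup.zpowers_le.2 ⟨h1, hc⟩) ?_
      intro h
      exact hdc (h ▸ ⟨h2, hd⟩)
    have hlt : Nat.card (Subgroup.zpowers c) < Nat.card (stab ρ v ⊓ E : Subgroup G) := by
      by_contra hcon
      exact hz.ne (Subgroup.eq_of_le_of_card_ge hz.le (not_lt.1 hcon))
    rw [Nat.card_zpowers, hco, hk'] at hlt
    have : k = 2 := by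
      by_contra hk2
      have : k ≤ 1 := by omega
      have := Nat.pow_le_pow_right hp.out.pos this
      rw [pow_one] at this
      omega
    apply Subgroup.eq_of_le_of_card_ge hle
    rw [hk', this, hE]
  refine normal_fix_zero ρ hρ hG hh E hne ?_
  intro n hn
  rw [← hK] at hn
  exact hn.1

/-- exists a nontrivial element of `E` with a nonzero fixed vector -/
theorem exists_fix [Finite G] [Finite V] [Nontrivial V] {p : ℕ} [hp : Fact p.Prime] (E : Subgroup G)
    (hE : Nat.card E = p ^ 2) (hEp : ∀ x ∈ E, x ^ p = 1) :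
    ∃ b ∈ E, b ≠ 1 ∧ ∃ v : V, v ≠ 0 ∧ ρ b v = v := by
  by_contra hcon
  push Not at hcon
  have hfpf : Cfsg.Agent.Frob.IsFPF ((toAut ρ).comp E.subtype) := by
    intro e he w hw
    by_contra hw1
    exact hcon e e.2 (fun h => he (Subtype.ext h)) w.toAdd hw1 hw
  have hcyc := hfpf.isCyclic_of_card_eq_mul hp.out hp.out (by rw [hE, sq])
  obtain ⟨x, hx⟩ := hcyc.exists_generator
  have h1 : orderOf x = p ^ 2 := by rw [orderOf_eq_card_of_forall_mem_zpowers hx, hE]
  have h2 : x ^ p = 1 := Subtype.ext (hEp x x.2)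
  have h3 := orderOf_dvd_of_pow_eq_one h2
  rw [h1] at h3
  have h4 := Nat.le_of_dvd hp.out.pos h3
  have := hp.out.one_lt
  nlinarith

theorem orderOf_of {p : ℕ} [Fact p.Prime] {x : G} (h : x ^ p = 1) (h1 : x ≠ 1) :
    orderOf x = p := orderOf_eq_prime h h1

theorem zpowers_eq_of [Finite G] {p : ℕ} {c b : G} (hc : orderOf c = p)
    (hb : orderOf b = p) (h : c ∈ Subgroup.zpowers b) : Subgroup.zpowers c = Subgroup.zpowers b := by
  apply Subgroup.eq_of_le_of_card_ge (Subgroup.zpowers_le.2 h)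
  rw [Nat.card_zpowers, Nat.card_zpowers, hb, hc]

theorem avg_eq_zero [Finite G] {p : ℕ} [hp : Fact p.Prime] (hρ : Function.Injective ρ)
    (hG : (Nat.card G : ZMod q) ≠ 0) (hh : Half ρ) (E : Subgroup G) [E.Normal]
    (hEc : ∀ x ∈ E, ∀ y ∈ E, x * y = y * x)
    (hE : Nat.card E = p ^ 2) {c d : G} (hc : c ∈ E) (hd : d ∈ E) (hco : orderOf c = p)
    (hdc : d ∉ Subgroup.zpowers c) {v : V} (h2 : ρ d v = v) : avg ρ (Subgroup.zpowers c) v = 0 := by
  refine fix_two ρ hρ hG hh E hE hc hd hco hdc ?_ ?_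
  · exact avg_fix ρ _ v (Subgroup.mem_zpowers c)
  · rw [avg_equiv ρ _ v d, h2]
    intro n
    have hcomm : ∀ n ∈ Subgroup.zpowers c, d * n * d⁻¹ = n := by
      intro n hn
      rw [hEc d hd n ((Subgroup.zpowers_le.2 hc) hn)]
      group
    constructor
    · intro hn
      rw [hcomm n hn]; exact hn
    · intro hn
      have h3 := hcomm _ hn
      have h4 : d * n * d⁻¹ = n := by
        have : d⁻¹ * (d * (d * n * d⁻¹) * d⁻¹) * d = d⁻¹ * (d * n * d⁻¹) * d := by rw [h3]
        have e1 : d⁻¹ * (d * (d * n * d⁻¹) * d⁻¹) * d = d * n * d⁻¹ := by group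
        have e2 : d⁻¹ * (d * n * d⁻¹) * d = n := by group
        rw [e1, e2] at this
        exact this
      rw [h4] at hn
      exact hn

/-- core step: with `b, b2 = g b g⁻¹` independent and `v1` fixed by `b`, a stabilizer of `v1 + g v1`
either fixes `v1` or swaps the two. -/
theorem stab_sum [Finite G] {p : ℕ} [hp : Fact p.Prime] (hρ : Function.Injective ρ)
    (hG : (Nat.card G : ZMod q) ≠ 0) (hh : Half ρ) (E : Subgroup G) [hEn : E.Normal]
    (hEc : ∀ x ∈ E, ∀ y ∈ E, x * y = y * x)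
    (hE : Nat.card E = p ^ 2) {b b2 : G} (hb : b ∈ E) (hb2 : b2 ∈ E) (hbo : orderOf b = p)
    (hb2o : orderOf b2 = p)
    (hne : b2 ∉ Subgroup.zpowers b) {v1 v2 : V} (h1 : ρ b v1 = v1) (h2 : ρ b2 v2 = v2)
    {h : G} (hs : ρ h (v1 + v2) = v1 + v2) (hv1 : v1 ≠ 0) :
    ρ h v1 = v1 ∨ (ρ h v1 = v2 ∧ ρ h v2 = v1) := by
  have hNc : (Nat.card (Subgroup.zpowers b) : ZMod q) ≠ 0 := card_cast_ne hG _
  have hav1 : avg ρ (Subgroup.zpowers b) v1 = v1 := by
    apply avg_of_fix ρ _ hNc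
    intro n hn
    have : Subgroup.zpowers b ≤ stab ρ v1 := Subgroup.zpowers_le.2 h1
    exact this hn
  have hav2 : avg ρ (Subgroup.zpowers b) v2 = 0 :=
    avg_eq_zero ρ hρ hG hh E hEc hE hb hb2 hbo hne h2
  -- images
  have key : ∀ (c : G) (v : V), c ∈ E → orderOf c = p → ρ c v = v →
      (h * c * h⁻¹ ∈ Subgroup.zpowers b ∧ avg ρ (Subgroup.zpowers b) (ρ h v) = ρ h v) ∨
      (h * c * h⁻¹ ∉ Subgroup.zpowers b ∧ avg ρ (Subgroup.zpowers b) (ρ h v) = 0) := by
    intro c v hc hco hcv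
    have hfix : ρ (h * c * h⁻¹) (ρ h v) = ρ h v := by
      rw [← mul_app]
      have : h * c * h⁻¹ * h = h * c := by group
      rw [this, mul_app, hcv]
    have hord : orderOf (h * c * h⁻¹) = p := (MulEquiv.orderOf_eq (MulAut.conj h) c).trans hco
    by_cases hm : h * c * h⁻¹ ∈ Subgroup.zpowers b
    · left
      refine ⟨hm, avg_of_fix ρ _ hNc ?_⟩
      intro n hn
      rw [← zpowers_eq_of hord hbo hm] at hn
      have : Subgroup.zpowers (h * c * h⁻¹) ≤ stab ρ (ρ h v) := Subgroup.zpowers_le.2 hfix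
      exact this hn
    · right
      exact ⟨hm, avg_eq_zero ρ hρ hG hh E hEc hE hb (hEn.conj_mem c hc h) hbo hm hfix⟩
  have hsum := congrArg (avg ρ (Subgroup.zpowers b)) hs
  rw [map_add, avg_add, avg_add, hav1, hav2, add_zero] at hsum
  rw [map_add] at hs
  rcases key b v1 hb hbo h1 with ⟨m1, e1⟩ | ⟨m1, e1⟩
  · rcases key b2 v2 hb2 hb2o h2 with ⟨m2, e2⟩ | ⟨m2, e2⟩
    · exfalso
      have o1 : orderOf (h * b * h⁻¹) = p :=
        (MulEquiv.orderOf_eq (MulAut.conj h) b).trans hbo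
      have z1 := zpowers_eq_of o1 hbo m1
      rw [← z1] at m2
      apply hne
      obtain ⟨k, hk⟩ := Subgroup.mem_zpowers_iff.1 m2
      rw [Subgroup.mem_zpowers_iff]
      refine ⟨k, ?_⟩
      have e3 : (h * b * h⁻¹) ^ k = h * b ^ k * h⁻¹ := by
        rw [conj_zpow]
      rw [e3] at hk
      have := mul_right_cancel (mul_left_cancel (by simpa [mul_assoc] using hk : h * (b ^ k * h⁻¹) = h * (b2 * h⁻¹)))
      exact this
    · left
      rw [e1, e2, add_zero] at hsum
      exact hsum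
  · right
    rcases key b2 v2 hb2 hb2o h2 with ⟨m2, e2⟩ | ⟨m2, e2⟩
    · rw [e1, e2, zero_add] at hsum
      rw [hsum] at hs
      refine ⟨?_, hsum⟩
      have : ρ h v1 + v1 = v2 + v1 := by rw [hs, add_comm]
      exact add_right_cancel this
    · exfalso
      rw [e1, e2, zero_add] at hsum
      exact hv1 hsum.symm

/-- no normal elementary abelian `p²` for odd `p` -/
theorem no_sq_odd [Finite G] [Finite V] [Nontrivial V] {p : ℕ} [hp : Fact p.Prime] (hp2 : p ≠ 2)
    (hGp : IsPGroup p G) (hρ : Function.Injective ρ)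
    (hG : (Nat.card G : ZMod q) ≠ 0) (hh : Half ρ) (E : Subgroup G) [hEn : E.Normal]
    (hEc : ∀ x ∈ E, ∀ y ∈ E, x * y = y * x) (hEp : ∀ x ∈ E, x ^ p = 1)
    (hE : Nat.card E = p ^ 2) : False := by
  obtain ⟨b, hb, hb1, v1, hv1, hbv⟩ := exists_fix ρ (p := p) E hE hEp
  have hbo : orderOf b = p := orderOf_of (hEp b hb) hb1
  have hnn : ¬ (Subgroup.zpowers b).Normal := fun hn =>
    hb1 (semireg_of_normal ρ hρ hG hh hv1 hbv hn)
  have hex : ∃ g : G, g * b * g⁻¹ ∉ Subgroup.zpowers b := by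
    by_contra hcon
    push Not at hcon
    apply hnn
    constructor
    intro n hn g
    obtain ⟨k, rfl⟩ := Subgroup.mem_zpowers_iff.1 hn
    rw [← conj_zpow]
    exact zpow_mem (hcon g) k
  obtain ⟨g, hg⟩ := hex
  set b2 := g * b * g⁻¹ with hb2
  have hb2E : b2 ∈ E := hEn.conj_mem b hb g
  have hb2o : orderOf b2 = p := (MulEquiv.orderOf_eq (MulAut.conj g) b).trans hbo
  set v2 := ρ g v1 with hv2
  have hb2v : ρ b2 v2 = v2 := by
    rw [hv2, ← mul_app]
    have : b2 * g = g * b := by rw [hb2]; group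
    rw [this, mul_app, hbv]
  have hv20 : v2 ≠ 0 := by
    intro h
    apply hv1
    have := congrArg (ρ g⁻¹) h
    rw [hv2, inv_app, map_zero] at this
    exact this
  have hsum0 : v1 + v2 ≠ 0 := by
    intro h
    have h1 : v1 = - v2 := eq_neg_of_add_eq_zero_left h
    apply hv1
    refine fix_two ρ hρ hG hh E hE hb hb2E hbo hg hbv ?_
    rw [h1, map_neg, hb2v]
  have hle : stab ρ (v1 + v2) ≤ stab ρ v1 := by
    intro h hh'
    rcases stab_sum ρ hρ hG hh E hEc hE hb hb2E hbo hb2o hg hbv hb2v hh' hv1 with h1 | ⟨h1, h2⟩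
    · exact h1
    · exfalso
      -- `h` has odd order
      have hodd : Odd (orderOf h) := by
        obtain ⟨k, hk⟩ := (IsPGroup.iff_orderOf.1 hGp) h
        rw [hk]
        exact (hp.out.odd_of_ne_two hp2).pow
      obtain ⟨j, hj⟩ := hodd
      have hpow : h = (h * h) ^ (j + 1) := by
        have : (h * h) ^ (j + 1) = h ^ (orderOf h) * h := by
          rw [hj, ← pow_two, ← pow_mul, ← pow_succ]
          congr 1
        rw [this, pow_orderOf_eq_one, one_mul]
      have hsq : h * h ∈ stab ρ v1 := by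
        rw [mem_stab, mul_app, h1, h2]
      have hm : h ∈ stab ρ v1 := by
        rw [hpow]
        exact pow_mem hsq _
      rw [mem_stab, h1] at hm
      apply hv1
      refine fix_two ρ hρ hG hh E hE hb hb2E hbo hg hbv ?_
      rw [← hm, hb2v]
  have heq : stab ρ (v1 + v2) = stab ρ v1 :=
    Subgroup.eq_of_le_of_card_ge hle (le_of_eq (hh v1 (v1 + v2) hv1 hsum0))
  have hbm : b ∈ stab ρ (v1 + v2) := by rw [heq]; exact hbv
  rw [mem_stab, map_add, hbv] at hbm
  have h3 : ρ b v2 = v2 := add_left_cancel hbm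
  exact hv20 (fix_two ρ hρ hG hh E hE hb hb2E hbo hg h3 hb2v)

end Cfsg.Agent.H23.HT
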