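import Cfsg.Agent.H23.HalfTrB

set_option autoImplicit false
open Cfsg

namespace Cfsg.Agent.H23.HT

/-! ### number theory -/

theorem odd_dvd_two_pow {T m : ℕ} (h : T ∣ 2 ^ m) (ho : Odd T) : T = 1 := by
  have h1 : Nat.Coprime T (2 ^ m) := Nat.Coprime.pow_right m (Nat.coprime_two_right.2 ho)
  exact Nat.eq_one_of_dvd_coprimes h1 dvd_rfl h

theorem nt_sub {q d m : ℕ} (hq : q.Prime) (hq2 : q ≠ 2) (hd : 0 < d) (h : q ^ d = 2 ^ m + 1) :
    d = 1 ∨ (q = 3 ∧ d = 2) := by
  have hqo : Odd q := hq.odd_of_ne_two hq2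
  have hq3 : 3 ≤ q := by
    have := hq.two_le
    omega
  rcases Nat.even_or_odd d with he | ho
  · right
    obtain ⟨f, hf⟩ := he
    have hf0 : 0 < f := by omega
    have hqf : 3 ≤ q ^ f := le_trans hq3 (Nat.le_self_pow (by omega) q)
    obtain ⟨u, hu⟩ : ∃ u, q ^ f = u + 1 := ⟨q ^ f - 1, by omega⟩
    have hprod : u * (u + 2) = 2 ^ m := by
      have : q ^ d = (u + 1) * (u + 1) := by rw [hf, pow_add, hu]
      rw [this] at h
      nlinarith
    obtain ⟨x, -, hx⟩ := (Nat.dvd_prime_pow Nat.prime_two).1 (⟨_, hprod.symm⟩ : u ∣ 2 ^ m)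
    obtain ⟨y, -, hy⟩ := (Nat.dvd_prime_pow Nat.prime_two).1 (⟨u, by rw [mul_comm]; exact hprod.symm⟩ : u + 2 ∣ 2 ^ m)
    have hu2 : u = 2 := by
      rcases Nat.lt_or_ge x 2 with hx1 | hx1
      · interval_cases x
        · simp at hx; omega
        · simpa using hx
      · exfalso
        have h4 : 4 ∣ u := by
          rw [hx]
          exact pow_dvd_pow 2 hx1
        have hy2 : 2 ≤ y := by
          by_contra hlt
          have : y ≤ 1 := by omega
          have := Nat.pow_le_pow_right (show 0 < 2 by norm_num) this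
          omega
        have h4' : 4 ∣ u + 2 := by
          rw [hy]
          exact pow_dvd_pow 2 hy2
        omega
    have hq3' : q ^ f = 3 := by omega
    have hf1 : f = 1 := by
      by_contra hne
      have : 3 ^ 2 ≤ q ^ f := le_trans (Nat.pow_le_pow_left hq3 2)
        (Nat.pow_le_pow_right (by omega) (by omega))
      omega
    rw [hf1, pow_one] at hq3'
    exact ⟨hq3', by omega⟩
  · left
    -- geometric sum
    have h1 : (∑ i ∈ Finset.range d, q ^ i) * (q - 1) = q ^ d - 1 := by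
      exact Nat.geomSum_eq hq.two_le d ▸ Nat.div_mul_cancel (by simpa using Nat.sub_one_dvd_pow_sub_one q d)
    have h2 : (∑ i ∈ Finset.range d, q ^ i) ∣ 2 ^ m := by
      refine ⟨q - 1, ?_⟩
      rw [h1, h]; simp
    have h3 : Odd (∑ i ∈ Finset.range d, q ^ i) := by
      rw [Finset.odd_sum_iff_odd_card_odd]
      have : (Finset.range d).filter (fun i => Odd (q ^ i)) = Finset.range d := by
        apply Finset.filter_true_of_mem
        intro i _
        exact hqo.pow
      rw [this, Finset.card_range]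
      exact ho
    have h4 := odd_dvd_two_pow h2 h3
    by_contra hne
    have h5 : 1 + q ≤ ∑ i ∈ Finset.range d, q ^ i := by
      have hs : ∑ i ∈ Finset.range 2, q ^ i ≤ ∑ i ∈ Finset.range d, q ^ i :=
        Finset.sum_le_sum_of_subset (Finset.range_mono (by omega))
      simpa [Finset.sum_range_succ] using hs
    omega

theorem nt_add {q e m : ℕ} (hq : q.Prime) (hq2 : q ≠ 2) (he0 : 0 < e) (h : q ^ e + 1 = 2 ^ m) :
    e = 1 := by
  have hqo : Odd q := hq.odd_of_ne_two hq2
  have hq3 : 3 ≤ q := by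
    have := hq.two_le
    omega
  rcases Nat.even_or_odd e with he | ho
  · exfalso
    obtain ⟨f, hf⟩ := he
    obtain ⟨u, hu⟩ : Odd (q ^ f) := hqo.pow
    have h1 : q ^ e = 4 * (u * u + u) + 1 := by rw [hf, pow_add, hu]; ring
    rw [h1] at h
    have hm : m ≤ 1 := by
      by_contra hlt
      have : 4 ∣ 2 ^ m := pow_dvd_pow 2 (show 2 ≤ m by omega)
      omega
    have h2 := Nat.pow_le_pow_right (show 0 < 2 by norm_num) hm
    have h3 : u * u + u = 0 := by omega
    have h4 : u = 0 := by nlinarith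
    rw [h4] at hu
    have : 3 ≤ q ^ f := le_trans hq3 (Nat.le_self_pow (by omega) q)
    omega
  · set S : ℤ := ∑ i ∈ Finset.range e, (-(q : ℤ)) ^ i with hS
    have h1 : S * (-(q : ℤ) - 1) = (-(q : ℤ)) ^ e - 1 := geom_sum_mul _ _
    have h2 : S * ((q : ℤ) + 1) = 2 ^ m := by
      have h3 : (-(q : ℤ)) ^ e = - (q : ℤ) ^ e := ho.neg_pow _
      have h4 : ((q : ℤ) ^ e + 1) = 2 ^ m := by exact_mod_cast h
      rw [h3] at h1
      linarith
    have h3 : Odd S := by
      rw [← Int.not_even_iff_odd, even_iff_two_dvd]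
      intro hd
      have h4 : ((S : ℤ) : ZMod 2) = 0 := (ZMod.intCast_zmod_eq_zero_iff_dvd S 2).2 hd
      have h5 : (((q : ℕ) : ℤ) : ZMod 2) = 1 := by
        obtain ⟨c, hc⟩ := hqo
        rw [hc]
        push_cast
        have : (2 : ZMod 2) = 0 := rfl
        rw [this]; ring
      rw [hS] at h4
      push_cast at h4 h5
      rw [h5] at h4
      have h6 : (-1 : ZMod 2) = 1 := rfl
      rw [h6] at h4
      simp only [one_pow, Finset.sum_const, Finset.card_range, nsmul_eq_mul, mul_one] at h4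
      obtain ⟨c, hc⟩ := ho
      rw [hc] at h4
      push_cast at h4
      have : (2 : ZMod 2) = 0 := rfl
      rw [this] at h4
      simp at h4
    have h4 : S.natAbs = 1 := by
      apply odd_dvd_two_pow (m := m)
      · have : S ∣ (2 ^ m : ℤ) := ⟨_, h2.symm⟩
        have := Int.natAbs_dvd_natAbs.2 this
        simpa [Int.natAbs_pow] using this
      · exact Int.natAbs_odd.2 h3
    have h5 : 2 ^ m = q + 1 := by
      have h6 := congrArg Int.natAbs h2
      rw [Int.natAbs_mul, h4, one_mul, Int.natAbs_pow] at h6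
      have h7 : ((q : ℤ) + 1).natAbs = q + 1 := by
        have : ((q : ℤ) + 1) = ((q + 1 : ℕ) : ℤ) := by push_cast; ring
        rw [this, Int.natAbs_natCast]
      rw [h7] at h6
      simpa using h6.symm
    have h6 : q ^ e = q ^ 1 := by rw [pow_one]; omega
    exact Nat.pow_right_injective (by omega) h6

/-! ### counting -/

variable {q : ℕ} [hq : Fact q.Prime] {V : Type*} [AddCommGroup V] [Module (ZMod q) V]
  {G : Type*} [Group G] (ρ : G →* (V ≃ₗ[ZMod q] V))

theorem card_split [Finite V] (h2 : (2 : ZMod q) ≠ 0) {t : G} (ht : t * t = 1) :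
    Nat.card V = Nat.card {v : V // ρ t v = v} * Nat.card {v : V // ρ t v = -v} := by
  rw [← Nat.card_prod]
  have htt : ∀ v, ρ t (ρ t v) = v := fun v => by rw [← mul_app, ht]; simp
  refine Nat.card_congr
    { toFun := fun v => (⟨(2 : ZMod q)⁻¹ • (v + ρ t v), by
        rw [map_smul, map_add, htt, add_comm]⟩, ⟨(2 : ZMod q)⁻¹ • (v - ρ t v), by
        rw [map_smul, map_sub, htt, ← smul_neg, neg_sub]⟩)
      invFun := fun w => w.1.1 + w.2.1
      left_inv := fun v => by
        show (2 : ZMod q)⁻¹ • (v + ρ t v) + (2 : ZMod q)⁻¹ • (v - ρ t v) = v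
        rw [← smul_add, add_add_sub_cancel, ← two_smul (ZMod q) v, smul_smul, inv_mul_cancel₀ h2, one_smul]
      right_inv := fun w => by
        obtain ⟨⟨x, hx⟩, ⟨y, hy⟩⟩ := w
        have hx2 : (2 : ZMod q)⁻¹ • (x + x) = x := by
          rw [← two_smul (ZMod q) x, smul_smul, inv_mul_cancel₀ h2, one_smul]
        have hy2 : (2 : ZMod q)⁻¹ • (y + y) = y := by
          rw [← two_smul (ZMod q) y, smul_smul, inv_mul_cancel₀ h2, one_smul]
        apply Prod.ext
        · apply Subtype.ext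
          show (2 : ZMod q)⁻¹ • (x + y + ρ t (x + y)) = x
          rw [map_add, hx, hy]
          have : x + y + (x + -y) = x + x := by abel
          rw [this, hx2]
        · apply Subtype.ext
          show (2 : ZMod q)⁻¹ • (x + y - ρ t (x + y)) = y
          rw [map_add, hx, hy]
          have : x + y - (x + -y) = y + y := by abel
          rw [this, hy2] }

theorem card_sq [Finite V] (h2 : (2 : ZMod q) ≠ 0) {t z h : G} (ht : t * t = 1)
    (hz : ∀ v, ρ z v = -v) (hh : h * t * h⁻¹ = z * t) :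
    Nat.card {v : V // ρ t v = v} * Nat.card {v : V // ρ t v = v} = Nat.card V := by
  rw [card_split ρ h2 ht]
  congr 1
  refine Nat.card_congr
    { toFun := fun v => ⟨ρ h v.1, by
        have h1 : ρ (h * t * h⁻¹) (ρ h v.1) = ρ h v.1 := by
          rw [← mul_app]
          have : h * t * h⁻¹ * h = h * t := by group
          rw [this, mul_app, v.2]
        rw [hh, mul_app, hz] at h1
        rw [← h1, neg_neg, h1]⟩
      invFun := fun w => ⟨ρ h⁻¹ w.1, by
        have h1 : ρ (z * t) w.1 = w.1 := by rw [mul_app, hz, w.2, neg_neg]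
        rw [← hh, mul_app, mul_app] at h1
        have h2 := congrArg (ρ h⁻¹) h1
        rw [inv_app] at h2
        exact h2⟩
      left_inv := fun v => Subtype.ext (inv_app ρ h v.1)
      right_inv := fun w => Subtype.ext (app_inv ρ h w.1) }

theorem count [Finite G] [Finite V] [Nontrivial V] (h2 : (2 : ZMod q) ≠ 0) (C : Subgroup G)
    (hfree : ∀ v : V, v ≠ 0 → ∀ g ∈ C, ρ g v = v → g = 1)
    (hidx : ∀ x y : G, x ∉ C → y ∉ C → x * y ∈ C)
    (hstab : ∀ v : V, v ≠ 0 → ∃ t : G, t ≠ 1 ∧ ρ t v = v) {z : G} (hz : ∀ v, ρ z v = -v)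
    (hconj : ∀ t : G, t ∉ C → t * t = 1 → ∃ h, h * t * h⁻¹ = z * t) :
    ∃ R : ℕ, R * R = Nat.card V ∧ R + 1 = Nat.card {t : G // t ∉ C ∧ t * t = 1} := by
  classical
  have _ := Fintype.ofFinite {t : G // t ∉ C ∧ t * t = 1}
  have hex : ∀ v : V, v ≠ 0 → ∃ t : G, (t ∉ C ∧ t * t = 1) ∧ ρ t v = v := by
    intro v hv
    obtain ⟨t, ht, htv⟩ := hstab v hv
    have htC : t ∉ C := fun h => ht (hfree v hv t h htv)
    refine ⟨t, ⟨htC, ?_⟩, htv⟩
    exact hfree v hv _ (hidx t t htC htC) (by rw [mul_app, htv, htv])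
  have huniq : ∀ v : V, v ≠ 0 → ∀ t s : G, (t ∉ C ∧ t * t = 1) → (s ∉ C ∧ s * s = 1) →
      ρ t v = v → ρ s v = v → t = s := by
    intro v hv t s ht hs h3 h4
    have h5 : t * s = 1 := hfree v hv _ (hidx t s ht.1 hs.1) (by rw [mul_app, h4, h3])
    calc t = t * s * s := by rw [mul_assoc, hs.2, mul_one]
      _ = s := by rw [h5, one_mul]
  obtain ⟨v0, hv0⟩ := exists_ne (0 : V)
  obtain ⟨t0, ht0, -⟩ := hex v0 hv0
  obtain ⟨h0, hh0⟩ := hconj t0 ht0.1 ht0.2
  set R := Nat.card {v : V // ρ t0 v = v} with hR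
  have hRR : R * R = Nat.card V := card_sq ρ h2 ht0.2 hz hh0
  refine ⟨R, hRR, ?_⟩
  -- choose
  have hall : ∀ t : {t : G // t ∉ C ∧ t * t = 1},
      Nat.card {v : V // v ≠ 0 ∧ ρ (t : G) v = v} = R - 1 := by
    intro t
    obtain ⟨h, hh⟩ := hconj t.1 t.2.1 t.2.2
    have h3 := card_sq ρ h2 t.2.2 hz hh
    have h4 : Nat.card {v : V // ρ (t : G) v = v} = R := by
      rw [← hRR] at h3
      exact Nat.mul_self_inj.1 h3
    rw [← h4]
    have h5 : Nat.card {v : V // ρ (t : G) v = v} =
        Nat.card {v : V // v ≠ 0 ∧ ρ (t : G) v = v} + 1 := by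
      rw [← Finite.card_option]
      refine Nat.card_congr
        { toFun := fun v => if h : v.1 = 0 then none else some ⟨v.1, h, v.2⟩
          invFun := fun w => w.elim ⟨0, map_zero _⟩ (fun u => ⟨u.1, u.2.2⟩)
          left_inv := ?_
          right_inv := ?_ }
      · rintro ⟨v, hv⟩
        by_cases h : v = 0
        · subst h; simp
        · simp [h]
      · rintro (_ | ⟨u, hu, hu'⟩)
        · simp
        · simp [hu]
    omega
  have hcard : Nat.card {v : V // v ≠ 0} =
      Nat.card {t : G // t ∉ C ∧ t * t = 1} * (R - 1) := by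
    have h3 : Nat.card {v : V // v ≠ 0} =
        Nat.card (Σ t : {t : G // t ∉ C ∧ t * t = 1}, {v : V // v ≠ 0 ∧ ρ (t : G) v = v}) := by
      refine Nat.card_congr
        { toFun := fun v => ⟨⟨(hex v.1 v.2).choose, (hex v.1 v.2).choose_spec.1⟩, ⟨v.1, v.2,
            (hex v.1 v.2).choose_spec.2⟩⟩
          invFun := fun w => ⟨w.2.1, w.2.2.1⟩
          left_inv := fun v => rfl
          right_inv := ?_ }
      rintro ⟨⟨t, ht⟩, ⟨v, hv, htv⟩⟩
      have h4 : (hex v hv).choose = t :=
        huniq v hv _ _ (hex v hv).choose_spec.1 ht (hex v hv).choose_spec.2 htv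
      subst h4
      rfl
    rw [h3, Nat.card_sigma, Finset.sum_congr rfl (fun t _ => hall t), Finset.sum_const,
      Finset.card_univ, smul_eq_mul, Nat.card_eq_fintype_card]
  have hV : Nat.card V = Nat.card {v : V // v ≠ 0} + 1 := by
    rw [← Finite.card_option]
    refine Nat.card_congr
      { toFun := fun v => if h : v = 0 then none else some ⟨v, h⟩
        invFun := fun w => w.elim 0 (fun u => u.1)
        left_inv := ?_
        right_inv := ?_ }
    · intro v
      by_cases h : v = 0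
      · subst h; simp
      · simp [h]
    · rintro (_ | ⟨u, hu⟩)
      · simp
      · simp [hu]
  have hV1 : 1 < Nat.card V := Finite.one_lt_card
  have hR1 : 1 < R := by nlinarith
  obtain ⟨s, hs⟩ : ∃ s, R = s + 1 := ⟨R - 1, by omega⟩
  rw [hV, hcard, hs] at hRR
  have hs0 : 0 < s := by omega
  have h6 : (s + 2) * s = Nat.card {t : G // t ∉ C ∧ t * t = 1} * s := by
    have : s + 1 - 1 = s := by omega
    rw [this] at hRR
    nlinarith
  have h7 := Nat.eq_of_mul_eq_mul_right hs0 h6
  omega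

end Cfsg.Agent.H23.HT
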