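import Cfsg.Agent.H23.HalfTrC

set_option autoImplicit false
open Cfsg

namespace Cfsg.Agent.H23.HT

theorem ba_zpow {G : Type*} [Group G] {a b : G} {κ : ℤ} (h : b * a * b⁻¹ = a ^ κ) (j : ℤ) :
    b * a ^ j = a ^ (κ * j) * b := by
  have h1 : b * a ^ j * b⁻¹ = a ^ (κ * j) := by
    rw [← conj_zpow, h, zpow_mul]
  rw [← h1]; group

theorem normal_zpowers_of_mem {G : Type*} [Group G] {a g : G} (ha : (Subgroup.zpowers a).Normal)
    (hg : g ∈ Subgroup.zpowers a) : (Subgroup.zpowers g).Normal := by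
  obtain ⟨j, rfl⟩ := Subgroup.mem_zpowers_iff.1 hg
  constructor
  intro n hn x
  obtain ⟨k, rfl⟩ := Subgroup.mem_zpowers_iff.1 hn
  obtain ⟨i, hi⟩ := Subgroup.mem_zpowers_iff.1 (ha.conj_mem a (Subgroup.mem_zpowers a) x)
  rw [← conj_zpow, ← conj_zpow, ← hi]
  rw [Subgroup.mem_zpowers_iff]
  refine ⟨i * k, ?_⟩
  rw [← zpow_mul, ← zpow_mul, ← zpow_mul]
  congr 1
  ring

variable {q : ℕ} [hq : Fact q.Prime] {V : Type*} [AddCommGroup V] [Module (ZMod q) V]
  {G : Type*} [Group G] (ρ : G →* (V ≃ₗ[ZMod q] V))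

theorem ne_two_of {q : ℕ} (h2 : (2 : ZMod q) ≠ 0) : q ≠ 2 := by
  rintro rfl
  exact h2 rfl

include hq in
theorem final_R [Finite V] [Nontrivial V] (hq2 : q ≠ 2) {R k : ℕ} (hRR : R * R = Nat.card V)
    (hT : R + 1 = 2 ^ k) : Nat.card V = q ^ 2 ∧ q = 2 ^ k - 1 := by
  have hV : Nat.card V = q ^ Module.finrank (ZMod q) V := by
    rw [Module.natCard_eq_pow_finrank (K := ZMod q) (V := V), Nat.card_zmod]
  have hV1 : 1 < Nat.card V := Finite.one_lt_card
  have hd : R ∣ q ^ Module.finrank (ZMod q) V := ⟨R, by rw [← hV, hRR]⟩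
  obtain ⟨e, -, he⟩ := (Nat.dvd_prime_pow hq.out).1 hd
  have he0 : 0 < e := by
    rcases Nat.eq_zero_or_pos e with h | h
    · exfalso
      rw [h, pow_zero] at he
      rw [he] at hRR
      omega
    · exact h
  have he1 := nt_add hq.out hq2 he0 (by rw [← he]; exact hT)
  rw [he1, pow_one] at he
  rw [he] at hRR hT
  exact ⟨by rw [← hRR, sq], by omega⟩

theorem cyc_type [Finite G] [Finite V] [Nontrivial V] (hGp : IsPGroup 2 G)
    (hρ : Function.Injective ρ) (hG : (Nat.card G : ZMod q) ≠ 0) (hh : Half ρ)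
    (hn : ∀ A : Subgroup G, A.Normal → IsMulCommutative A → IsCyclic A)
    (hns : ∃ v : V, v ≠ 0 ∧ ∃ g : G, g ≠ 1 ∧ ρ g v = v) :
    Nat.card V = q ^ 2 ∧ ∃ m : ℕ, q = 2 ^ m - 1 ∧
      (Nonempty (G ≃* DihedralGroup (2 ^ m)) ∨ (Cfsg.IsQuasiDihedral G ∧ Nat.card G = 2 ^ (m + 2))) := by
  obtain ⟨v0, hv0, g0, hg0, hgv0⟩ := hns
  have hna : ∃ x y : G, x * y ≠ y * x := by
    by_contra hcon
    push Not at hcon
    apply hg0
    refine semireg_of_normal ρ hρ hG hh hv0 hgv0 ⟨?_⟩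
    intro n hn' x
    have : x * n * x⁻¹ = n := by rw [hcon x n]; group
    rw [this]; exact hn'
  obtain ⟨-, a0, hAn, hcent, hidx, m, hm2, ham⟩ :=
    Cfsg.Agent.H9.exists_cyclic_index_two hGp hn hna
  have hcard : Nat.card G = 2 ^ (m + 1) := by
    rw [← Subgroup.card_mul_index (Subgroup.zpowers a0), hidx, Nat.card_zpowers, ham, pow_succ]
  have h2 : (2 : ZMod q) ≠ 0 := by
    intro h
    apply hG
    rw [hcard]
    push_cast
    rw [h, zero_pow (by omega)]
  have hq2 := ne_two_of h2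
  obtain ⟨a, b, hz, ha, hb, hrel⟩ := Cfsg.Agent.MaxClass.two_group_cyclic_max (m + 1) (by omega)
    hcard (Subgroup.zpowers a0) inferInstance hidx hna
  have e1 : m + 1 - 1 = m := by omega
  have e2 : m + 1 - 2 = m - 1 := by omega
  rw [e1] at ha
  rw [e2] at hrel
  rw [← hz] at hidx hAn hcent
  set C := Subgroup.zpowers a with hC
  have hidx2 : ∀ x y : G, x ∉ C → y ∉ C → x * y ∈ C := by
    intro x y hx hy
    rw [Subgroup.mul_mem_iff_of_index_two hidx]
    simp [hx, hy]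
  have hfree : ∀ v : V, v ≠ 0 → ∀ g ∈ C, ρ g v = v → g = 1 := by
    intro v hv g hg hgv
    exact semireg_of_normal ρ hρ hG hh hv hgv (normal_zpowers_of_mem hAn hg)
  have hstab : ∀ v : V, v ≠ 0 → ∃ t : G, t ≠ 1 ∧ ρ t v = v := by
    intro v hv
    have h1 : 1 < Nat.card (stab ρ v) := by
      rw [hh v v0 hv hv0]
      have : Nontrivial (stab ρ v0) :=
        ⟨⟨⟨g0, hgv0⟩, 1, fun h => hg0 (congrArg Subtype.val h)⟩⟩
      exact Finite.one_lt_card
    have h3 : stab ρ v ≠ ⊥ := by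
      intro h
      rw [h, Subgroup.card_bot] at h1
      omega
    obtain ⟨t, ht⟩ := Subgroup.ne_bot_iff_exists_ne_one.1 h3
    exact ⟨t, fun h => ht (Subtype.ext h), t.2⟩
  set z := a ^ ((2 : ℤ) ^ (m - 1)) with hzdef
  have hzC : z ∈ C := Subgroup.zpow_mem_zpowers a _
  have key : ∀ i : ℤ, a ^ i = 1 ↔ (2 : ℤ) ^ m ∣ i := by
    intro i
    rw [← orderOf_dvd_iff_zpow_eq_one, ha]
    push_cast
    rfl
  have hpm : (2 : ℤ) ^ m = 2 * 2 ^ (m - 1) := by
    rw [← pow_succ']; congr 1; omega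
  have hzz : z * z = 1 := by
    rw [hzdef, ← zpow_add, key, hpm]
    exact ⟨1, by ring⟩
  have hz1 : z ≠ 1 := by
    intro h
    rw [hzdef, key, hpm] at h
    obtain ⟨c, hc⟩ := h
    have h3 : (2 : ℤ) ^ (m - 1) ≠ 0 := by positivity
    have h4 : (1 : ℤ) = 2 * c := by
      apply mul_left_cancel₀ h3
      linarith
    omega
  have hzneg : ∀ v : V, ρ z v = -v := by
    intro v
    by_contra hne
    have h3 : v + ρ z v ≠ 0 := by
      intro h
      apply hne
      rw [eq_neg_iff_add_eq_zero, add_comm]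
      exact h
    apply hz1
    apply hfree _ h3 z hzC
    rw [map_add, ← mul_app, hzz, map_one, LinearEquiv.coe_one, id, add_comm]
  have hform : ∀ t : G, t ∉ C → ∃ i : ℤ, t = a ^ i * b := by
    intro t ht
    have : t * b⁻¹ ∈ C := hidx2 t b⁻¹ ht (fun h => hb (by simpa using C.inv_mem h))
    obtain ⟨i, hi⟩ := Subgroup.mem_zpowers_iff.1 this
    exact ⟨i, by rw [hi]; group⟩
  have hnotmem : ∀ c ∈ C, c * b ∉ C := by
    intro c hc h
    exact hb ((Subgroup.mul_mem_cancel_left C hc).1 h)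
  have hcardC : Nat.card C = 2 ^ m := by rw [hC, Nat.card_zpowers, ha]
  rcases hrel with ⟨hb2, hconj⟩ | ⟨hb2, hconj⟩ | ⟨hm4, hb2, hconj⟩ | ⟨hm4, hb2, hconj⟩
  · -- dihedral
    have hconj' : b * a * b⁻¹ = a ^ (-1 : ℤ) := by rw [hconj, zpow_neg_one]
    have hba := ba_zpow hconj'
    have htt : ∀ i : ℤ, a ^ i * b * (a ^ i * b) = 1 := by
      intro i
      calc a ^ i * b * (a ^ i * b) = a ^ i * (b * a ^ i) * b := by group
        _ = a ^ i * a ^ (-1 * i) * b ^ 2 := by rw [hba, sq]; simp only [mul_assoc]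
        _ = 1 := by rw [hb2, mul_one, ← zpow_add]; simp
    have hcj : ∀ t : G, t ∉ C → t * t = 1 → ∃ h, h * t * h⁻¹ = z * t := by
      intro t ht _
      obtain ⟨i, rfl⟩ := hform t ht
      refine ⟨a ^ ((2 : ℤ) ^ (m - 2)), ?_⟩
      rw [← zpow_neg]
      calc a ^ ((2 : ℤ) ^ (m - 2)) * (a ^ i * b) * a ^ (-(2 : ℤ) ^ (m - 2))
          = a ^ ((2 : ℤ) ^ (m - 2)) * a ^ i * (b * a ^ (-(2 : ℤ) ^ (m - 2))) := by group
        _ = a ^ ((2 : ℤ) ^ (m - 2)) * a ^ i * (a ^ (-1 * (-(2 : ℤ) ^ (m - 2))) * b) := by rw [hba]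
        _ = a ^ ((2 : ℤ) ^ (m - 1)) * (a ^ i * b) := by
          rw [← mul_assoc, ← mul_assoc, ← zpow_add, ← zpow_add, ← zpow_add]
          congr 2
          have : (2 : ℤ) ^ (m - 1) = 2 * 2 ^ (m - 2) := by rw [← pow_succ']; congr 1; omega
          rw [this]; ring
    obtain ⟨R, hRR, hRT⟩ := count ρ h2 C hfree hidx2 hstab hzneg hcj
    have hT : Nat.card {t : G // t ∉ C ∧ t * t = 1} = 2 ^ m := by
      rw [← hcardC]
      let e : C ≃ {t : G // t ∉ C ∧ t * t = 1} :=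
        { toFun := fun c => ⟨c.1 * b, hnotmem c.1 c.2, by
            obtain ⟨i, hi⟩ := Subgroup.mem_zpowers_iff.1 c.2
            rw [← hi]; exact htt i⟩
          invFun := fun t => ⟨t.1 * b⁻¹, hidx2 _ _ t.2.1 (fun h => hb (by simpa using C.inv_mem h))⟩
          left_inv := fun c => Subtype.ext (mul_inv_cancel_right _ _)
          right_inv := fun t => Subtype.ext (inv_mul_cancel_right _ _) }
      exact (Nat.card_congr e).symm
    rw [hT] at hRT
    obtain ⟨hV, hqm⟩ := final_R (V := V) hq2 hRR hRT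
    refine ⟨hV, m, hqm, Or.inl ?_⟩
    exact Cfsg.Agent.H9.nonempty_mulEquiv_dihedralGroup (2 ^ m) (by positivity) ha hb hb2 hconj
        (by rw [hcard, pow_succ, mul_comm])
  · -- quaternion : impossible
    exfalso
    have hconj' : b * a * b⁻¹ = a ^ (-1 : ℤ) := by rw [hconj, zpow_neg_one]
    have hba := ba_zpow hconj'
    obtain ⟨t, ht, htv⟩ := hstab v0 hv0
    have htC : t ∉ C := fun h => ht (hfree v0 hv0 t h htv)
    have h3 : t * t = 1 := hfree v0 hv0 _ (hidx2 t t htC htC) (by rw [mul_app, htv, htv])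
    obtain ⟨i, rfl⟩ := hform t htC
    have h4 : a ^ i * b * (a ^ i * b) = b ^ 2 := by
      calc a ^ i * b * (a ^ i * b) = a ^ i * (b * a ^ i) * b := by group
        _ = a ^ i * a ^ (-1 * i) * b ^ 2 := by rw [hba, sq]; simp only [mul_assoc]
        _ = b ^ 2 := by rw [← zpow_add]; simp
    rw [h4, hb2] at h3
    apply hz1
    rw [hzdef, ← h3]
    have : ((2 : ℤ) ^ (m - 1)) = ((2 ^ (m - 1) : ℕ) : ℤ) := by push_cast; rfl
    rw [this, zpow_natCast]
  · -- modular : impossible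
    exfalso
    obtain ⟨E, hEn, hEab, hE2, hEc⟩ := Cfsg.Agent.H9.exists_normal_elementary_of_conj (p := 2) a hAn
      hcent m ha hm2 (fun _ => by omega) b hb (1 + 2 ^ (m - 1)) (by rw [hconj]; norm_cast)
      ⟨1, by push_cast; ring⟩
    obtain ⟨e, he⟩ := (Subgroup.isCyclic_iff_exists_zpowers_eq_top E).1 (hn E hEn hEab)
    have h1 : orderOf e = 4 := by rw [← Nat.card_zpowers, he, hEc]; norm_num
    have h3 := orderOf_dvd_of_pow_eq_one (hE2 e (by rw [← he]; exact Subgroup.mem_zpowers e))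
    rw [h1] at h3
    omega
  · -- semidihedral
    have hκ : ((2 ^ (m - 1) - 1 : ℕ) : ℤ) = 2 ^ (m - 1) - 1 := by
      have : 1 ≤ 2 ^ (m - 1) := Nat.one_le_two_pow
      push_cast [Nat.cast_sub this]
      ring
    have hconj' : b * a * b⁻¹ = a ^ ((2 : ℤ) ^ (m - 1) - 1) := by
      rw [hconj, ← hκ, zpow_natCast]
    have hba := ba_zpow hconj'
    have hb2' : b * b = 1 := by rw [← sq]; exact hb2
    have htt : ∀ i : ℤ, a ^ i * b * (a ^ i * b) = a ^ (2 ^ (m - 1) * i) := by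
      intro i
      calc a ^ i * b * (a ^ i * b) = a ^ i * (b * a ^ i) * b := by group
        _ = a ^ i * a ^ (((2 : ℤ) ^ (m - 1) - 1) * i) * b ^ 2 := by rw [hba, sq]; simp only [mul_assoc]
        _ = a ^ (2 ^ (m - 1) * i) := by
          rw [hb2, mul_one, ← zpow_add]
          congr 1
          ring
    have hcj : ∀ t : G, t ∉ C → t * t = 1 → ∃ h, h * t * h⁻¹ = z * t := by
      intro t ht _
      obtain ⟨i, rfl⟩ := hform t ht
      refine ⟨a ^ ((2 : ℤ) ^ (m - 2)), ?_⟩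
      rw [← zpow_neg]
      calc a ^ ((2 : ℤ) ^ (m - 2)) * (a ^ i * b) * a ^ (-(2 : ℤ) ^ (m - 2))
          = a ^ ((2 : ℤ) ^ (m - 2)) * a ^ i * (b * a ^ (-(2 : ℤ) ^ (m - 2))) := by group
        _ = a ^ ((2 : ℤ) ^ (m - 2)) * a ^ i *
            (a ^ (((2 : ℤ) ^ (m - 1) - 1) * (-(2 : ℤ) ^ (m - 2))) * b) := by rw [hba]
        _ = a ^ ((2 : ℤ) ^ (m - 1)) * (a ^ i * b) := by
          rw [← mul_assoc, ← mul_assoc, ← zpow_add, ← zpow_add, ← zpow_add]
          congr 1
          rw [← mul_inv_eq_one, ← zpow_neg, ← zpow_add, key]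
          have h5 : (2 : ℤ) ^ (m - 1) = 2 * 2 ^ (m - 2) := by rw [← pow_succ']; congr 1; omega
          have h6 : (2 : ℤ) ^ m = 4 * 2 ^ (m - 2) := by
            have : (4 : ℤ) = 2 ^ 2 := by norm_num
            rw [this, ← pow_add]; congr 1; omega
          obtain ⟨r, hr⟩ : (2 : ℤ) ∣ 2 ^ (m - 2) := dvd_pow_self 2 (by omega)
          rw [h5, h6]
          refine ⟨-r, ?_⟩
          calc (2 : ℤ) ^ (m - 2) + i + (2 * 2 ^ (m - 2) - 1) * -2 ^ (m - 2) + -(2 * 2 ^ (m - 2) + i)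
              = -(2 ^ (m - 2) * (2 * 2 ^ (m - 2))) := by ring
            _ = -(2 ^ (m - 2) * (2 * (2 * r))) := by rw [← hr]
            _ = 4 * 2 ^ (m - 2) * -r := by ring
    obtain ⟨R, hRR, hRT⟩ := count ρ h2 C hfree hidx2 hstab hzneg hcj
    have hcard2 : Nat.card (Subgroup.zpowers (a ^ 2)) = 2 ^ (m - 1) := by
      rw [Nat.card_zpowers, orderOf_pow, ha]
      have : Nat.gcd (2 ^ m) 2 = 2 := by
        apply Nat.gcd_eq_right
        exact dvd_pow_self 2 (by omega)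
      rw [this]
      have : 2 ^ m = 2 ^ (m - 1) * 2 := by rw [← pow_succ]; congr 1; omega
      rw [this, Nat.mul_div_cancel _ (by norm_num)]
    have hT : Nat.card {t : G // t ∉ C ∧ t * t = 1} = 2 ^ (m - 1) := by
      rw [← hcard2]
      let e : Subgroup.zpowers (a ^ 2) ≃ {t : G // t ∉ C ∧ t * t = 1} :=
        { toFun := fun c => ⟨c.1 * b, by
            obtain ⟨i, hi⟩ := Subgroup.mem_zpowers_iff.1 c.2
            have h7 : (c : G) = a ^ (2 * i) := by
              rw [← hi, zpow_mul]; norm_cast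
            rw [h7]
            refine ⟨hnotmem _ (Subgroup.zpow_mem_zpowers a _), ?_⟩
            rw [htt, key, hpm]
            exact ⟨i, by ring⟩⟩
          invFun := fun t => ⟨t.1 * b⁻¹, by
            obtain ⟨i, hi⟩ := hform t.1 t.2.1
            have h7 := t.2.2
            rw [hi, htt, key, hpm] at h7
            obtain ⟨c, hc⟩ := h7
            have h8 : (2 : ℤ) ^ (m - 1) ≠ 0 := by positivity
            have h9 : i = 2 * c := by
              apply mul_left_cancel₀ h8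
              linarith
            rw [hi, h9, mul_inv_cancel_right, Subgroup.mem_zpowers_iff]
            exact ⟨c, by rw [zpow_mul]; norm_cast⟩⟩
          left_inv := fun c => Subtype.ext (mul_inv_cancel_right _ _)
          right_inv := fun t => Subtype.ext (inv_mul_cancel_right _ _) }
      exact (Nat.card_congr e).symm
    rw [hT] at hRT
    obtain ⟨hV, hqm⟩ := final_R (V := V) hq2 hRR hRT
    refine ⟨hV, m - 1, hqm, Or.inr ⟨⟨m, by omega, hcard, a, b, ha, ?_, hconj⟩, ?_⟩⟩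
    · exact orderOf_eq_prime hb2 (fun h => hb (by rw [h]; exact one_mem _))
    · rw [hcard]; congr 1; omega

end Cfsg.Agent.H23.HT
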