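import Cfsg.Agent.H23.HalfTrD

set_option autoImplicit false
open Cfsg

namespace Cfsg.Agent.H23.HT

variable {q : ℕ} [hq : Fact q.Prime] {V : Type*} [AddCommGroup V] [Module (ZMod q) V]
  {G : Type*} [Group G] (ρ : G →* (V ≃ₗ[ZMod q] V))

/-- the four-group configuration -/
structure Four (b z g0 : G) : Prop where
  bb : b * b = 1
  zc : ∀ g, g * z = z * g
  zneg : ∀ v, ρ z v = -v
  g0b : g0 * b * g0⁻¹ = z * b
  cases : ∀ g : G, g * b * g⁻¹ = b ∨ g * b * g⁻¹ = z * b
  b1 : b ≠ 1
  swap : ∀ v w : V, v ≠ 0 → w ≠ 0 → ρ b v = v → ρ b w = -w → ∃ h, ρ h v = w ∧ ρ h w = v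
  ex : ∃ v : V, v ≠ 0 ∧ ρ b v = v

theorem exists_four [Finite G] [Finite V] [Nontrivial V] (hGp : IsPGroup 2 G)
    (hρ : Function.Injective ρ) (hG : (Nat.card G : ZMod q) ≠ 0) (hh : Half ρ)
    (E : Subgroup G) [hEn : E.Normal] (hEc : ∀ x ∈ E, ∀ y ∈ E, x * y = y * x)
    (hEp : ∀ x ∈ E, x ^ 2 = 1) (hE : Nat.card E = 2 ^ 2) : ∃ b z g0 : G, Four ρ b z g0 := by
  obtain ⟨b, hb, hb1, v1, hv1, hbv⟩ := exists_fix ρ (p := 2) E hE hEp
  have hbo : orderOf b = 2 := orderOf_of (hEp b hb) hb1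
  have hbb : b * b = 1 := by rw [← sq]; exact hEp b hb
  have hEne : E ≠ ⊥ := fun h => hb1 (by rw [h] at hb; exact Subgroup.mem_bot.1 hb)
  obtain ⟨z, hzE, hzo, hzc⟩ := Cfsg.Agent.H23.exists_central_orderOf hGp hEn hEne
  have hzc' : ∀ g, g * z = z * g := fun g => Subgroup.mem_center_iff.1 hzc g
  have hz1 : z ≠ 1 := fun h => by rw [h, orderOf_one] at hzo; omega
  have hzz : z * z = 1 := by rw [← sq, ← hzo, pow_orderOf_eq_one]
  have hzn : (Subgroup.zpowers z).Normal := by
    constructor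
    intro n hn g
    obtain ⟨k, rfl⟩ := Subgroup.mem_zpowers_iff.1 hn
    have : g * z ^ k * g⁻¹ = z ^ k := by
      rw [((show Commute g z from hzc' g).zpow_right k).eq]; group
    rw [this]; exact hn
  have hzneg : ∀ v : V, ρ z v = -v := by
    intro v
    by_contra hne
    have h3 : v + ρ z v ≠ 0 := by
      intro h
      apply hne
      rw [eq_neg_iff_add_eq_zero, add_comm]
      exact h
    apply hz1
    apply semireg_of_normal ρ hρ hG hh h3 _ hzn
    rw [map_add, ← mul_app, hzz, map_one, LinearEquiv.coe_one, id, add_comm]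
  have hnn : ¬ (Subgroup.zpowers b).Normal := fun hn =>
    hb1 (semireg_of_normal ρ hρ hG hh hv1 hbv hn)
  have hex : ∃ g : G, g * b * g⁻¹ ∉ Subgroup.zpowers b := by
    by_contra hcon
    push Not at hcon
    apply hnn
    constructor
    intro n hn g
    obtain ⟨k, rfl⟩ := Subgroup.mem_zpowers_iff.1 hn
    rw [← conj_zpow]
    exact zpow_mem (hcon g) k
  obtain ⟨g0, hg0⟩ := hex
  have hzb : z ≠ b := by
    rintro rfl
    exact hnn hzn
  -- elements of zpowers b
  have hmemb : ∀ x ∈ Subgroup.zpowers b, x = 1 ∨ x = b := by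
    intro x hx
    obtain ⟨k, rfl⟩ := Subgroup.mem_zpowers_iff.1 hx
    rcases Int.even_or_odd k with ⟨c, hc⟩ | ⟨c, hc⟩
    · left
      rw [hc, ← two_mul, zpow_mul]
      have : b ^ (2 : ℤ) = 1 := by
        rw [zpow_two]; exact hbb
      rw [this, one_zpow]
    · right
      rw [hc, zpow_add, zpow_mul]
      have : b ^ (2 : ℤ) = 1 := by
        rw [zpow_two]; exact hbb
      rw [this, one_zpow, one_mul, zpow_one]
  have hzB : z ∉ Subgroup.zpowers b := by
    intro h
    rcases hmemb z h with h | h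
    · exact hz1 h
    · exact hzb h
  have hidx : ((Subgroup.zpowers b).subgroupOf E).index = 2 := by
    have h1 := Subgroup.card_mul_index ((Subgroup.zpowers b).subgroupOf E)
    have h2 : Nat.card ((Subgroup.zpowers b).subgroupOf E) = 2 := by
      rw [Nat.card_congr (Subgroup.subgroupOfEquivOfLe (Subgroup.zpowers_le.2 hb)).toEquiv,
        Nat.card_zpowers, hbo]
    rw [h2, hE] at h1
    omega
  have hout : ∀ x ∈ E, x ∉ Subgroup.zpowers b → x = z * b ∨ x = z := by
    intro x hx hxb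
    have h1 := (Subgroup.mul_mem_iff_of_index_two hidx (a := (⟨z, hzE⟩ : E)) (b := (⟨x, hx⟩ : E)))
    simp only [Subgroup.mem_subgroupOf] at h1
    have h2 : z * x ∈ Subgroup.zpowers b := by
      have := h1.2 (by simp [hzB, hxb])
      exact this
    rcases hmemb _ h2 with h3 | h3
    · right
      calc x = z * (z * x) := by rw [← mul_assoc, hzz, one_mul]
        _ = z := by rw [h3, mul_one]
    · left
      calc x = z * (z * x) := by rw [← mul_assoc, hzz, one_mul]
        _ = z * b := by rw [h3]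
  have hconjz : ∀ g : G, g * b * g⁻¹ ≠ z := by
    intro g h
    apply hzb
    have : b = g⁻¹ * z * g := by rw [← h]; group
    rw [this, mul_assoc, ← hzc' g]; group
  have hcases : ∀ g : G, g * b * g⁻¹ = b ∨ g * b * g⁻¹ = z * b := by
    intro g
    by_cases hm : g * b * g⁻¹ ∈ Subgroup.zpowers b
    · left
      rcases hmemb _ hm with h | h
      · exfalso
        apply hb1
        have : b = g⁻¹ * (g * b * g⁻¹) * g := by group
        rw [this, h]; group
      · exact h
    · right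
      rcases hout _ (hEn.conj_mem b hb g) hm with h | h
      · exact h
      · exact absurd h (hconjz g)
  have hg0b : g0 * b * g0⁻¹ = z * b := by
    rcases hcases g0 with h | h
    · exact absurd (by rw [h]; exact Subgroup.mem_zpowers b) hg0
    · exact h
  have hb2E : z * b ∈ E := E.mul_mem hzE hb
  have hb2n : z * b ∉ Subgroup.zpowers b := by rw [← hg0b]; exact hg0
  have hb2o : orderOf (z * b) = 2 := by
    rw [← hg0b]
    exact (MulEquiv.orderOf_eq (MulAut.conj g0) b).trans hbo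
  refine ⟨b, z, g0, ⟨hbb, hzc', hzneg, hg0b, hcases, hb1, ?_, v1, hv1, hbv⟩⟩
  intro v w hv hw hbv hbw
  by_contra hcon
  push Not at hcon
  have hb2w : ρ (z * b) w = w := by rw [mul_app, hbw, hzneg, neg_neg]
  have hsum0 : v + w ≠ 0 := by
    intro h
    have h1 : v = - w := eq_neg_of_add_eq_zero_left h
    apply hv
    refine fix_two ρ hρ hG hh E hE hb hb2E hbo hb2n hbv ?_
    rw [h1, map_neg, hb2w]
  have hle : stab ρ (v + w) ≤ stab ρ v := by
    intro h hh'
    rcases stab_sum ρ hρ hG hh E hEc hE hb hb2E hbo hb2o hb2n hbv hb2w hh' hv with h1 | ⟨h1, h2⟩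
    · exact h1
    · exact absurd h2 (hcon h h1)
  have heq : stab ρ (v + w) = stab ρ v :=
    Subgroup.eq_of_le_of_card_ge hle (le_of_eq (hh v (v + w) hv hsum0))
  have hbm : b ∈ stab ρ (v + w) := by rw [heq]; exact hbv
  rw [mem_stab, map_add, hbv] at hbm
  have h3 : ρ b w = w := add_left_cancel hbm
  exact hw (fix_two ρ hρ hG hh E hE hb hb2E hbo hb2n h3 hb2w)

theorem card_nonzero_sub {P : V → Prop} [Finite V] (hP : P 0) :
    Nat.card {v : V // P v} = Nat.card {v : V // v ≠ 0 ∧ P v} + 1 := by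
  classical
  rw [← Finite.card_option]
  refine Nat.card_congr
    { toFun := fun v => if h : v.1 = 0 then none else some ⟨v.1, h, v.2⟩
      invFun := fun w => w.elim ⟨0, hP⟩ (fun u => ⟨u.1, u.2.2⟩)
      left_inv := ?_
      right_inv := ?_ }
  · rintro ⟨v, hv⟩
    by_cases h : v = 0
    · subst h; simp
    · simp [h]
  · rintro (_ | ⟨u, hu, hu'⟩)
    · simp
    · simp [hu]

theorem four_card [Finite G] [Finite V] [Nontrivial V] (hGp : IsPGroup 2 G) (h2 : (2 : ZMod q) ≠ 0)
    {b z g0 : G} (hF : Four ρ b z g0) :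
    (Nat.card V = q ^ 2 ∧ ∃ m : ℕ, q = 2 ^ m + 1) ∨ (Nat.card V = 81 ∧ q = 3) := by
  classical
  have hq2 := ne_two_of h2
  set R := Nat.card {v : V // ρ b v = v} with hR
  have hRR : R * R = Nat.card V := card_sq ρ h2 hF.bb hF.zneg hF.g0b
  have hV1 : 1 < Nat.card V := Finite.one_lt_card
  have hR1 : 1 < R := by nlinarith
  have hanti : Nat.card {v : V // ρ b v = -v} = R := by
    have h3 := card_split ρ h2 hF.bb
    rw [← hRR] at h3
    exact (Nat.eq_of_mul_eq_mul_left (by omega) h3).symm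
  obtain ⟨v1, hv1, hbv1⟩ := hF.ex
  have c1 : R = Nat.card {v : V // v ≠ 0 ∧ ρ b v = v} + 1 :=
    card_nonzero_sub (P := fun v => ρ b v = v) (map_zero _)
  have c2 : R = Nat.card {v : V // v ≠ 0 ∧ ρ b v = -v} + 1 := by
    rw [← hanti]
    exact card_nonzero_sub (P := fun v => ρ b v = -v) (by simp)
  -- some vector in `V2`
  have hw1 : ∃ w : V, w ≠ 0 ∧ ρ b w = -w := by
    have : 0 < Nat.card {v : V // v ≠ 0 ∧ ρ b v = -v} := by omega
    obtain ⟨w⟩ := (Nat.card_pos_iff.1 this).1
    exact ⟨w.1, w.2⟩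
  obtain ⟨w1, hw1, hbw1⟩ := hw1
  have horb : Nat.card {u : V | ∃ g : G, ρ g v1 = u} = (R - 1) + (R - 1) := by
    have e1 : R - 1 = Nat.card {v : V // v ≠ 0 ∧ ρ b v = v} := by omega
    have e2 : R - 1 = Nat.card {v : V // v ≠ 0 ∧ ρ b v = -v} := by omega
    conv_rhs => rw [e1]
    rw [← e1]
    conv_rhs => lhs; rw [e1]
    conv_rhs => rhs; rw [e2]
    rw [← Nat.card_sum]
    have hmem : ∀ u : V, (∃ g : G, ρ g v1 = u) ↔ u ≠ 0 ∧ (ρ b u = u ∨ ρ b u = -u) := by
      intro u
      constructor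
      · rintro ⟨g, rfl⟩
        refine ⟨fun h => hv1 ?_, ?_⟩
        · have := congrArg (ρ g⁻¹) h
          rw [inv_app, map_zero] at this
          exact this
        · have h3 : ρ (g * b * g⁻¹) (ρ g v1) = ρ g v1 := by
            rw [← mul_app]
            have : g * b * g⁻¹ * g = g * b := by group
            rw [this, mul_app, hbv1]
          rcases hF.cases g with h | h
          · left; rw [h] at h3; exact h3
          · right
            rw [h, mul_app, hF.zneg] at h3
            rw [← h3, neg_neg, h3]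
      · rintro ⟨hu, h | h⟩
        · obtain ⟨h3, h4, h5⟩ := hF.swap v1 w1 hv1 hw1 hbv1 hbw1
          obtain ⟨h6, h7, h8⟩ := hF.swap u w1 hu hw1 h hbw1
          exact ⟨h6 * h3, by rw [mul_app, h4, h8]⟩
        · obtain ⟨h3, h4, h5⟩ := hF.swap v1 u hv1 hu hbv1 h
          exact ⟨h3, h4⟩
    refine Nat.card_congr
      { toFun := fun u => if h : ρ b u.1 = u.1 then Sum.inl ⟨u.1, ((hmem u.1).1 u.2).1, h⟩
          else Sum.inr ⟨u.1, ((hmem u.1).1 u.2).1, ((hmem u.1).1 u.2).2.resolve_left h⟩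
        invFun := fun s => s.elim (fun u => ⟨u.1, (hmem u.1).2 ⟨u.2.1, Or.inl u.2.2⟩⟩)
          (fun u => ⟨u.1, (hmem u.1).2 ⟨u.2.1, Or.inr u.2.2⟩⟩)
        left_inv := ?_
        right_inv := ?_ }
    · rintro ⟨u, hu⟩
      by_cases h : ρ b u = u
      · simp [h]
      · simp [h]
    · rintro (⟨u, hu, hu'⟩ | ⟨u, hu, hu'⟩)
      · simp [hu']
      · have h : ¬ ρ b u = u := by
          intro h
          rw [hu'] at h
          apply hu
          have h3 : (2 : ZMod q) • u = 0 := by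
            rw [two_smul]
            nth_rewrite 1 [← h]
            simp
          exact (smul_eq_zero.1 h3).resolve_left h2
        simp [h]
  have hdvd : Nat.card {u : V | ∃ g : G, ρ g v1 = u} ∣ Nat.card G := ⟨_, (orbit_card ρ v1).symm⟩
  obtain ⟨k, hk⟩ := hGp.exists_card_eq
  rw [hk, horb] at hdvd
  obtain ⟨j, -, hj⟩ := (Nat.dvd_prime_pow Nat.prime_two).1 hdvd
  have hj0 : 0 < j := by
    rcases Nat.eq_zero_or_pos j with h | h
    · exfalso; rw [h, pow_zero] at hj; omega
    · exact h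
  obtain ⟨i, rfl⟩ : ∃ i, j = i + 1 := ⟨j - 1, by omega⟩
  have hR2 : R = 2 ^ i + 1 := by rw [pow_succ] at hj; omega
  have hV : Nat.card V = q ^ Module.finrank (ZMod q) V := by
    rw [Module.natCard_eq_pow_finrank (K := ZMod q) (V := V), Nat.card_zmod]
  have hd : R ∣ q ^ Module.finrank (ZMod q) V := ⟨R, by rw [← hV, hRR]⟩
  obtain ⟨e, -, he⟩ := (Nat.dvd_prime_pow hq.out).1 hd
  have he0 : 0 < e := by
    rcases Nat.eq_zero_or_pos e with h | h
    · exfalso
      rw [h, pow_zero] at he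
      omega
    · exact h
  rcases nt_sub hq.out hq2 he0 (by rw [← he]; exact hR2) with h | ⟨h, h'⟩
  · left
    rw [h, pow_one] at he
    exact ⟨by rw [← hRR, he, sq], i, by rw [← he]; exact hR2⟩
  · right
    rw [h, h'] at he
    exact ⟨by rw [← hRR, he]; norm_num, h⟩

end Cfsg.Agent.H23.HT
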