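import Cfsg.Agent.H23.HalfTrE

set_option autoImplicit false
open Cfsg

namespace Cfsg.Agent.H23.HT

variable {q : ℕ} [hq : Fact q.Prime] {V : Type*} [AddCommGroup V] [Module (ZMod q) V]
  {G : Type*} [Group G] (ρ : G →* (V ≃ₗ[ZMod q] V))

theorem vec_eta {F : Type*} (v : Fin 2 → F) : v = ![v 0, v 1] := by
  ext i; fin_cases i <;> rfl

theorem four_coord [Finite G] [Finite V] [Nontrivial V] (hρ : Function.Injective ρ)
    (hh : Half ρ) (h2 : (2 : ZMod q) ≠ 0) (hV : Nat.card V = q ^ 2)
    {b z g0 : G} (hF : Four ρ b z g0) :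
    ∃ e : V ≃ₗ[ZMod q] (Fin 2 → ZMod q), ∀ f : (Fin 2 → ZMod q) ≃ₗ[ZMod q] (Fin 2 → ZMod q),
        (∃ g : G, f = e.symm.trans ((ρ g).trans e)) ↔
        ∃ a s : ZMod q, a ≠ 0 ∧ (s = 1 ∨ s = -1) ∧
          ((∀ v, f v = ![a * v 0, s * a⁻¹ * v 1]) ∨ (∀ v, f v = ![s * a⁻¹ * v 1, a * v 0])) := by
  classical
  obtain ⟨v1, hv1, hbv1⟩ := hF.ex
  set w1 := ρ g0 v1 with hw1d
  have hw1 : w1 ≠ 0 := by
    intro h
    apply hv1
    have := congrArg (ρ g0⁻¹) h
    rw [hw1d, inv_app, map_zero] at this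
    exact this
  have hbw1 : ρ b w1 = -w1 := by
    have h3 : ρ (g0 * b * g0⁻¹) (ρ g0 v1) = ρ g0 v1 := by
      rw [← mul_app]
      have : g0 * b * g0⁻¹ * g0 = g0 * b := by group
      rw [this, mul_app, hbv1]
    rw [hF.g0b, mul_app, hF.zneg] at h3
    have h4 : w1 = - ρ b w1 := h3.symm
    rw [eq_neg_iff_add_eq_zero, add_comm] at h4
    exact eq_neg_of_add_eq_zero_left h4
  -- independence
  have hind : ∀ x y : ZMod q, x • v1 + y • w1 = 0 → x = 0 ∧ y = 0 := by
    intro x y h
    have h3 := congrArg (ρ b) h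
    rw [map_add, map_smul, map_smul, hbv1, hbw1, map_zero, smul_neg] at h3
    have h4 : (2 : ZMod q) • (x • v1) = 0 := by
      rw [two_smul]
      calc x • v1 + x • v1 = (x • v1 + y • w1) + (x • v1 + -(y • w1)) := by abel
        _ = 0 := by rw [h, h3, add_zero]
    have h5 : x • v1 = 0 := (smul_eq_zero.1 h4).resolve_left h2
    have hx : x = 0 := (smul_eq_zero.1 h5).resolve_right hv1
    rw [h5, zero_add] at h
    exact ⟨hx, (smul_eq_zero.1 h).resolve_right hw1⟩
  have hli : LinearIndependent (ZMod q) ![v1, w1] := by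
    rw [LinearIndependent.pair_iff]
    exact hind
  have hfr : Module.finrank (ZMod q) V = 2 := by
    have hV' : Nat.card V = q ^ Module.finrank (ZMod q) V := by
      rw [Module.natCard_eq_pow_finrank (K := ZMod q) (V := V), Nat.card_zmod]
    rw [hV] at hV'
    exact (Nat.pow_right_injective hq.out.two_le hV').symm
  have hfin : Module.Finite (ZMod q) V := Module.finite_of_finrank_pos (by omega)
  let B := basisOfLinearIndependentOfCardEqFinrank hli (by rw [hfr]; simp)
  have hB : ⇑B = ![v1, w1] := coe_basisOfLinearIndependentOfCardEqFinrank hli _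
  have hB0 : B 0 = v1 := by rw [hB]; rfl
  have hB1 : B 1 = w1 := by rw [hB]; rfl
  let e : V ≃ₗ[ZMod q] (Fin 2 → ZMod q) := B.equivFun
  have hes : ∀ v : Fin 2 → ZMod q, e.symm v = v 0 • v1 + v 1 • w1 := by
    intro v
    show B.equivFun.symm v = _
    rw [Module.Basis.equivFun_symm_apply, Fin.sum_univ_two, hB0, hB1]
  have he : ∀ x y : ZMod q, e (x • v1 + y • w1) = ![x, y] := by
    intro x y
    have := hes ![x, y]
    rw [← LinearEquiv.eq_symm_apply, this]
    rfl
  have hspan : ∀ u : V, ∃ x y : ZMod q, u = x • v1 + y • w1 := by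
    intro u
    refine ⟨e u 0, e u 1, ?_⟩
    rw [← hes, LinearEquiv.symm_apply_apply]
  have hV1 : ∀ u : V, ρ b u = u → ∃ x : ZMod q, u = x • v1 := by
    intro u hu
    obtain ⟨x, y, rfl⟩ := hspan u
    rw [map_add, map_smul, map_smul, hbv1, hbw1] at hu
    have h3 : (0 : ZMod q) • v1 + (2 * y) • w1 = 0 := by
      have h4 : y • -w1 = y • w1 := add_left_cancel hu
      rw [zero_smul, zero_add, two_mul, add_smul]
      nth_rewrite 1 [← h4]
      rw [smul_neg, neg_add_cancel]
    have h5 := (hind _ _ h3).2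
    have h6 : y = 0 := (mul_eq_zero.1 h5).resolve_left h2
    exact ⟨x, by rw [h6, zero_smul, add_zero]⟩
  have hV2 : ∀ u : V, ρ b u = -u → ∃ x : ZMod q, u = x • w1 := by
    intro u hu
    obtain ⟨x, y, rfl⟩ := hspan u
    rw [map_add, map_smul, map_smul, hbv1, hbw1] at hu
    have h3 : (2 * x) • v1 + (0 : ZMod q) • w1 = 0 := by
      have h4 : x • v1 + y • -w1 + (x • v1 + y • w1) = 0 := by rw [hu]; abel
      rw [smul_neg] at h4
      rw [zero_smul, add_zero, two_mul, add_smul]
      calc x • v1 + x • v1 = x • v1 + -(y • w1) + (x • v1 + y • w1) := by abel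
        _ = 0 := h4
    have h5 := (hind _ _ h3).1
    have h6 : x = 0 := (mul_eq_zero.1 h5).resolve_left h2
    exact ⟨y, by rw [h6, zero_smul, zero_add]⟩
  -- action of elements in coordinates
  have hext : ∀ g h : G, ρ g v1 = ρ h v1 → ρ g w1 = ρ h w1 → g = h := by
    intro g h h3 h4
    apply hρ
    ext u
    obtain ⟨x, y, rfl⟩ := hspan u
    rw [map_add, map_add, map_smul, map_smul, map_smul, map_smul, h3, h4]
  have hswap : ∀ a : ZMod q, a ≠ 0 → ∃ g : G, ρ g v1 = a • w1 ∧ ρ g w1 = a⁻¹ • v1 := by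
    intro a ha
    obtain ⟨g, h3, h4⟩ := hF.swap v1 (a • w1) hv1 (smul_ne_zero ha hw1) hbv1
      (by rw [map_smul, hbw1, smul_neg])
    refine ⟨g, h3, ?_⟩
    rw [map_smul] at h4
    rw [← h4, smul_smul, inv_mul_cancel₀ ha, one_smul]
  obtain ⟨g1, hg1v, hg1w⟩ := hswap 1 one_ne_zero
  rw [one_smul] at hg1v
  rw [inv_one, one_smul] at hg1w
  have hz : ∀ v, ρ z v = -v := hF.zneg
  -- stabilizer of v1
  have hst2 : Nat.card (stab ρ (v1 + w1)) ≤ 2 := by
    have hsum0 : v1 + w1 ≠ 0 := by
      intro h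
      have := (hind 1 1 (by rw [one_smul, one_smul]; exact h)).1
      exact one_ne_zero this
    have hcl : ∀ g ∈ stab ρ (v1 + w1), g = 1 ∨ g = g1 := by
      intro g hg
      rw [mem_stab, map_add] at hg
      have h3 : ρ (g * b * g⁻¹) (ρ g v1) = ρ g v1 := by
        rw [← mul_app]
        have : g * b * g⁻¹ * g = g * b := by group
        rw [this, mul_app, hbv1]
      have h4 : ρ (g * b * g⁻¹) (ρ g w1) = - ρ g w1 := by
        rw [← mul_app]
        have : g * b * g⁻¹ * g = g * b := by group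
        rw [this, mul_app, hbw1, map_neg]
      rcases hF.cases g with h | h
      · left
        rw [h] at h3 h4
        obtain ⟨x, hx⟩ := hV1 _ h3
        obtain ⟨y, hy⟩ := hV2 _ h4
        rw [hx, hy] at hg
        have h5 : (x - 1) • v1 + (y - 1) • w1 = 0 := by
          rw [sub_smul, sub_smul, one_smul, one_smul]
          calc x • v1 - v1 + (y • w1 - w1) = (x • v1 + y • w1) - (v1 + w1) := by abel
            _ = 0 := by rw [hg, sub_self]
        obtain ⟨h6, h7⟩ := hind _ _ h5
        apply hext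
        · rw [hx, sub_eq_zero.1 h6]; simp
        · rw [hy, sub_eq_zero.1 h7]; simp
      · right
        rw [h, mul_app, hz] at h3 h4
        have h3' : ρ b (ρ g v1) = - ρ g v1 := by rw [← h3, neg_neg, h3]
        have h4' : ρ b (ρ g w1) = ρ g w1 := neg_injective h4
        obtain ⟨x, hx⟩ := hV2 _ h3'
        obtain ⟨y, hy⟩ := hV1 _ h4'
        rw [hx, hy] at hg
        have h5 : (y - 1) • v1 + (x - 1) • w1 = 0 := by
          rw [sub_smul, sub_smul, one_smul, one_smul]
          calc y • v1 - v1 + (x • w1 - w1) = (x • w1 + y • v1) - (v1 + w1) := by abel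
            _ = 0 := by rw [hg, sub_self]
        obtain ⟨h6, h7⟩ := hind _ _ h5
        apply hext
        · rw [hx, sub_eq_zero.1 h7, one_smul, hg1v]
        · rw [hy, sub_eq_zero.1 h6, one_smul, hg1w]
    have hinj : Function.Injective (fun g : stab ρ (v1 + w1) => decide ((g : G) = 1)) := by
      intro g h hgh
      have hgh' : ((g : G) = 1) ↔ ((h : G) = 1) := by simpa using hgh
      apply Subtype.ext
      rcases hcl g g.2 with h3 | h3
      · rw [h3, hgh'.1 h3]
      · rcases hcl h h.2 with h4 | h4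
        · rw [h4, hgh'.2 h4]
        · rw [h3, h4]
    have := Nat.card_le_card_of_injective _ hinj
    simpa using this
  have hsum0 : v1 + w1 ≠ 0 := by
    intro h
    have := (hind 1 1 (by rw [one_smul, one_smul]; exact h)).1
    exact one_ne_zero this
  have hstv : ∀ h : G, ρ h v1 = v1 → h = 1 ∨ h = b := by
    intro h hh1
    have hle : Nat.card (stab ρ v1) ≤ 2 := by rw [hh v1 (v1 + w1) hv1 hsum0]; exact hst2
    by_contra hcon
    push Not at hcon
    have hinj : Function.Injective (![⟨1, one_mem _⟩, ⟨b, hbv1⟩, ⟨h, hh1⟩] : Fin 3 → stab ρ v1) := by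
      intro i j hij
      fin_cases i <;> fin_cases j <;> simp [Subtype.ext_iff] at hij ⊢
      · exact hF.b1 hij.symm
      · exact hcon.1 hij.symm
      · exact hF.b1 hij
      · exact hcon.2 hij.symm
      · exact hcon.1 hij
      · exact hcon.2 hij
    have := Nat.card_le_card_of_injective _ hinj
    rw [Nat.card_eq_fintype_card, Fintype.card_fin] at this
    omega
  -- diagonal elements
  have hdiag : ∀ (g : G) (α β : ZMod q), ρ g v1 = α • v1 → ρ g w1 = β • w1 → α ≠ 0 →
      ∃ s : ZMod q, (s = 1 ∨ s = -1) ∧ β = s * α⁻¹ := by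
    intro g α β h3 h4 hα
    obtain ⟨gα, h5, h6⟩ := hswap α hα
    have h7 : ρ (g1 * gα) v1 = α • v1 := by rw [mul_app, h5, map_smul, hg1w]
    have h8 : ρ (g1 * gα) w1 = α⁻¹ • w1 := by rw [mul_app, h6, map_smul, hg1v]
    have h9 : ρ ((g1 * gα)⁻¹ * g) v1 = v1 := by
      rw [mul_app, h3, ← h7, inv_app]
    have h10 : ρ ((g1 * gα)⁻¹ * g) w1 = (α * β) • w1 := by
      rw [mul_app, h4]
      have h11 : β • w1 = (α * β) • ρ (g1 * gα) w1 := by
        rw [h8, smul_smul]
        congr 1
        field_simp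
      rw [h11, map_smul, inv_app]
    rcases hstv _ h9 with h12 | h12
    · refine ⟨1, Or.inl rfl, ?_⟩
      rw [h12, map_one, LinearEquiv.coe_one, id] at h10
      have h13 : (0 : ZMod q) • v1 + (α * β - 1) • w1 = 0 := by
        rw [zero_smul, zero_add, sub_smul, one_smul, ← h10, sub_self]
      have h14 := sub_eq_zero.1 (hind _ _ h13).2
      rw [one_mul]
      exact eq_inv_of_mul_eq_one_right h14
    · refine ⟨-1, Or.inr rfl, ?_⟩
      rw [h12, hbw1] at h10
      have h13 : (0 : ZMod q) • v1 + (α * β + 1) • w1 = 0 := by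
        rw [zero_smul, zero_add, add_smul, one_smul, ← h10, neg_add_cancel]
      have h14 : α * β = -1 := eq_neg_of_add_eq_zero_left (hind _ _ h13).2
      have : β = α⁻¹ * (α * β) := by field_simp
      rw [this, h14]; ring
  refine ⟨e, fun f => ⟨?_, ?_⟩⟩
  · rintro ⟨g, rfl⟩
    have h3 : ρ (g * b * g⁻¹) (ρ g v1) = ρ g v1 := by
      rw [← mul_app]
      have : g * b * g⁻¹ * g = g * b := by group
      rw [this, mul_app, hbv1]
    have h4 : ρ (g * b * g⁻¹) (ρ g w1) = - ρ g w1 := by
      rw [← mul_app]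
      have : g * b * g⁻¹ * g = g * b := by group
      rw [this, mul_app, hbw1, map_neg]
    have hgv0 : ρ g v1 ≠ 0 := by
      intro h
      apply hv1
      have := congrArg (ρ g⁻¹) h
      rw [inv_app, map_zero] at this
      exact this
    rcases hF.cases g with h | h
    · rw [h] at h3 h4
      obtain ⟨x, hx⟩ := hV1 _ h3
      obtain ⟨y, hy⟩ := hV2 _ h4
      have hx0 : x ≠ 0 := by
        rintro rfl
        exact hgv0 (by rw [hx, zero_smul])
      obtain ⟨s, hs, hys⟩ := hdiag g x y hx hy hx0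
      refine ⟨x, s, hx0, hs, Or.inl fun v => ?_⟩
      show e (ρ g (e.symm v)) = _
      rw [hes, map_add, map_smul, map_smul, hx, hy, smul_smul, smul_smul, he, hys]
      congr 1
      · ring
      · congr 1; ring
    · rw [h, mul_app, hz] at h3 h4
      have h3' : ρ b (ρ g v1) = - ρ g v1 := by rw [← h3, neg_neg, h3]
      have h4' : ρ b (ρ g w1) = ρ g w1 := neg_injective h4
      obtain ⟨x, hx⟩ := hV2 _ h3'
      obtain ⟨y, hy⟩ := hV1 _ h4'
      have hx0 : x ≠ 0 := by
        rintro rfl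
        exact hgv0 (by rw [hx, zero_smul])
      obtain ⟨s, hs, hys⟩ := hdiag (g1 * g) x y (by rw [mul_app, hx, map_smul, hg1w])
        (by rw [mul_app, hy, map_smul, hg1v]) hx0
      refine ⟨x, s, hx0, hs, Or.inr fun v => ?_⟩
      show e (ρ g (e.symm v)) = _
      rw [hes, map_add, map_smul, map_smul, hx, hy, smul_smul, smul_smul, add_comm, he, hys]
      congr 1
      · ring
      · congr 1; ring
  · rintro ⟨a, s, ha, hs, hf⟩
    obtain ⟨ga, h5, h6⟩ := hswap a ha
    have hzb1 : ρ (z * b) v1 = -v1 := by rw [mul_app, hbv1, hz]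
    have hzb2 : ρ (z * b) w1 = w1 := by rw [mul_app, hbw1, hz, neg_neg]
    rcases hf with hf | hf
    · -- diagonal
      have hex : ∃ g : G, ρ g v1 = a • v1 ∧ ρ g w1 = (s * a⁻¹) • w1 := by
        rcases hs with rfl | rfl
        · refine ⟨g1 * ga, ?_, ?_⟩
          · rw [mul_app, h5, map_smul, hg1w]
          · rw [mul_app, h6, map_smul, hg1v, one_mul]
        · refine ⟨b * (g1 * ga), ?_, ?_⟩
          · rw [mul_app, mul_app, h5, map_smul, hg1w, map_smul, hbv1]
          · rw [mul_app, mul_app, h6, map_smul, hg1v, map_smul, hbw1, smul_neg, neg_one_mul, neg_smul]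
      obtain ⟨g, h7, h8⟩ := hex
      refine ⟨g, ?_⟩
      ext1 v
      rw [hf v]
      show _ = e (ρ g (e.symm v))
      rw [hes, map_add, map_smul, map_smul, h7, h8, smul_smul, smul_smul, he]
      congr 1
      · ring
      · congr 1; ring
    · have hex : ∃ g : G, ρ g v1 = a • w1 ∧ ρ g w1 = (s * a⁻¹) • v1 := by
        rcases hs with rfl | rfl
        · exact ⟨ga, h5, by rw [h6, one_mul]⟩
        · refine ⟨z * b * ga, ?_, ?_⟩
          · rw [mul_app, h5, map_smul, hzb2]
          · rw [mul_app, h6, map_smul, hzb1, smul_neg, neg_one_mul, neg_smul]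
      obtain ⟨g, h7, h8⟩ := hex
      refine ⟨g, ?_⟩
      ext1 v
      rw [hf v]
      show _ = e (ρ g (e.symm v))
      rw [hes, map_add, map_smul, map_smul, h7, h8, smul_smul, smul_smul, add_comm, he]
      congr 1
      · ring
      · congr 1; ring

end Cfsg.Agent.H23.HT
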