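import Cfsg.Prelude
import Cfsg.Agent.GeoMax.ONDGlue
import Cfsg.Agent.H94.ND8b

set_option autoImplicit false
open Cfsg

namespace Cfsg.Agent.H23.NI5

/-- the two halves of a non-degenerate 10-space that are not isometric: the stabiliser of the pair is maximal in Omega -/
theorem non_isom55 {F : Type*} [Field F] [Fintype F] (hodd : Odd (Fintype.card F)) {n : ℕ} (hn : n = 10) (Q : (Fin n → F) → F) (hQ : Cfsg.Geo.IsNondegenerateQuadraticForm Q) (k : ℕ) (hk : k = 5) (D : Fin 2 → Submodule F (Fin n → F)) (hD : Cfsg.Geo.IsNondegenerateMDecomposition (QuadraticMap.polar Q) k D) (hni : ¬ Cfsg.Geo.AreIsometricFor Q (D 0) (D 1)) : Cfsg.Geo.IsMaximalIn (Cfsg.Geo.omegaGL Q) (Cfsg.Geo.decompositionStabilizer D ⊓ Cfsg.Geo.omegaGL Q) := by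
  have h2 : (2 : F) ≠ 0 := by
    intro h
    have h5 : (Fintype.card F : F) = 0 := by simp
    obtain ⟨m, hm⟩ := hodd
    rw [hm] at h5
    push_cast at h5
    rw [h, zero_mul, zero_add] at h5
    exact one_ne_zero h5
  have hfr : Module.finrank F (Fin n → F) = n := by
    rw [Module.finrank_fintype_fun_eq_card]; simp
  have hnd := Cfsg.Agent.GeoMax.Ort.toQF_nondeg hQ
  have hWp : D 0 ⊓ Cfsg.Agent.Orth.perp (Cfsg.Agent.GeoMax.Ort.toQF hQ) (D 0) = ⊥ :=
    Cfsg.Agent.GeoMax.Ort.inf_perp_of_geo (Q := Cfsg.Agent.GeoMax.Ort.toQF hQ) (hD.nondegenerate 0)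
  have hd0 := hD.decomp.finrank_eq 0
  have hd1 := hD.decomp.finrank_eq 1
  have hdim := Cfsg.Agent.Orth.finrank_perp hnd (D 0)
  have hle : D 1 ≤ Cfsg.Agent.Orth.perp (Cfsg.Agent.GeoMax.Ort.toQF hQ) (D 0) := by
    intro x hx
    rw [Cfsg.Agent.GeoMax.Ort.mem_perp']
    intro u hu
    exact hD.orthogonal 1 0 (by decide) x hx u hu
  have hperp : D 1 = Cfsg.Agent.Orth.perp (Cfsg.Agent.GeoMax.Ort.toQF hQ) (D 0) :=
    Submodule.eq_of_le_of_finrank_le hle (by omega)
  -- an isometry cannot swap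
  have hns : ∀ g : Cfsg.Agent.Orth.OGrp (Cfsg.Agent.GeoMax.Ort.toQF hQ),
      ¬ (D 0).map ((g : (Fin n → F) ≃ₗ[F] (Fin n → F)) : (Fin n → F) →ₗ[F] (Fin n → F)) = D 1 := by
    intro g hg
    apply hni
    refine ⟨((g : (Fin n → F) ≃ₗ[F] (Fin n → F)).submoduleMap (D 0)).trans (LinearEquiv.ofEq _ _ hg), fun w => ?_⟩
    have := Cfsg.Agent.Orth.OGrp_q g (w : Fin n → F)
    exact this
  have hW0 : D 0 ≠ ⊥ := by
    intro h
    rw [h, finrank_bot] at hd0
    omega
  have hW1 : D 0 ≠ ⊤ := by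
    intro h
    rw [h, finrank_top] at hd0
    omega
  refine Cfsg.Agent.GeoMax.Ort.isMaximalIn_omegaGL (Cfsg.Agent.GeoMax.Ort.toQF hQ)
    (H' := Cfsg.Agent.GeoMax.Ort.stabO (Cfsg.Agent.GeoMax.Ort.toQF hQ) (D 0)) ?_ ?_
  · intro g
    have htl : ∀ W : Submodule F (Fin n → F),
        W.map (Matrix.toLin' (Cfsg.Agent.GeoMax.Ort.emGL (Cfsg.Agent.GeoMax.Ort.toQF hQ) g : Matrix (Fin n) (Fin n) F)) =
        W.map ((g : (Fin n → F) ≃ₗ[F] (Fin n → F)) : (Fin n → F) →ₗ[F] (Fin n → F)) := by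
      intro W
      congr 1
      ext1 i
      ext1
      rw [LinearMap.comp_apply, LinearMap.comp_apply, Matrix.toLin'_apply, Cfsg.Agent.GeoMax.Ort.emGL_mulVec]
      rfl
    have key : ∀ W : Submodule F (Fin n → F), g ∈ Cfsg.Agent.GeoMax.Ort.stabO (Cfsg.Agent.GeoMax.Ort.toQF hQ) W ↔
        W.map ((g : (Fin n → F) ≃ₗ[F] (Fin n → F)) : (Fin n → F) →ₗ[F] (Fin n → F)) = W := by
      intro W
      constructor
      · intro hg
        refine Submodule.eq_of_le_of_finrank_le ?_ (by rw [LinearEquiv.finrank_map_eq])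
        rintro _ ⟨x, hx, rfl⟩
        exact (Cfsg.Agent.GeoMax.Ort.mem_stabO.1 hg x).1 hx
      · intro hg
        apply Cfsg.Agent.GeoMax.Ort.mem_stabO_of_le
        intro x hx
        rw [← hg]
        exact Submodule.mem_map_of_mem hx
    constructor
    · intro hg
      refine ⟨1, fun i => ?_⟩
      rw [htl, Equiv.Perm.one_apply]
      fin_cases i
      · exact (key (D 0)).1 hg
      · rw [← Cfsg.Agent.GeoMax.Ort.stabO_perp hnd, ← hperp] at hg
        exact (key (D 1)).1 hg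
    · rintro ⟨σ, hσ⟩
      have h0 := hσ 0
      rw [htl] at h0
      rw [key]
      rcases (show σ 0 = 0 ∨ σ 0 = 1 by omega) with h | h
      · rw [h0, h]
      · rw [h] at h0
        exact absurd h0 (hns g)
  · refine Cfsg.Agent.H94.ND8.nd_maximal5 hnd h2 hWp (by omega) (by omega) (by
        intro h
        rw [← hperp] at h
        rw [h, finrank_bot] at hd1
        omega) (fun g _ hg => ?_)
      (fun h => by rw [← hperp] at h; omega)
    rw [← hperp] at hg
    refine hns g (Submodule.eq_of_le_of_finrank_le hg ?_)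
    rw [LinearEquiv.finrank_map_eq]
    omega

end Cfsg.Agent.H23.NI5
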