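import Cfsg.Prelude
import Cfsg.Agent.GeoMax.OGLMain

set_option autoImplicit false
open Cfsg

namespace Cfsg.Agent.H23.OT12

section
open QuadraticMap Module Cfsg.Agent.Orth Cfsg.Agent.GeoMax.Ort Cfsg.Agent.GeoMax.Ort.GoodP

variable {F V : Type*} [Field F] [AddCommGroup V] [Module F V]
variable [Finite F] [FiniteDimensional F V] {Q : QuadraticForm F V} {M : Subgroup (OGrp Q)}
variable {A B X X' : Submodule F V}

/-- If `M` has no unexpected elements, every good pair is the standard one. -/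
theorem eq_of_nf6 (hQ : (polarBilin Q).Nondegenerate) (hA : GoodP Q M A B)
    (hdA : 6 ≤ finrank F A) (hdB : 6 ≤ finrank F B)
    (hX : GoodP Q M X X')
    (hno : NF M X X') (hnoA : NF M A B) (hnoB : NF M B A) : X ≤ A ∨ X ≤ B := by
  by_contra hcon
  push Not at hcon
  obtain ⟨v, hvX, hvA, hvB⟩ := exists_notMem_notMem' hcon.1 hcon.2
  have hv0 : v ≠ 0 := by rintro rfl; exact hvA A.zero_mem
  have hmem : ∀ a : V, polar Q a v = 0 →
      (∀ u ∈ X', polar Q u v = 0 → polar Q u a = 0) → ∃ c : F, a - c • v ∈ X' := by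
    intro a hav ha
    obtain ⟨z, hz⟩ := exists_polar_ne hQ hv0
    obtain ⟨x, hx, y, hy, rfl⟩ := hX.exists_add z
    rw [pal, hX.pol hx hvX, zero_add] at hz
    refine ⟨polar Q y a / polar Q y v, ?_⟩
    apply hX.symm.mem_of_perp hQ
    intro u hu
    have h1 := ha (u - (polar Q u v / polar Q y v) • y) (X'.sub_mem hu (X'.smul_mem _ hy)) (by
      rw [pdl, psl, div_mul_cancel₀ _ hz, sub_self])
    rw [pdl, psl] at h1
    rw [pdl, psl, pc Q a u, pc Q v u]
    field_simp at h1 ⊢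
    linear_combination h1
  let Kv : Submodule F V := perp Q (Submodule.span F {v})
  have hKv : ∀ x, x ∈ Kv ↔ polar Q x v = 0 := fun x => mem_perp_one
  let P : Submodule F V := X' ⊔ Submodule.span F {v}
  have hP : ∀ a : V, polar Q a v = 0 →
      (∀ u ∈ X', polar Q u v = 0 → polar Q u a = 0) → a ∈ P := by
    intro a hav ha
    obtain ⟨c, hc⟩ := hmem a hav ha
    have : a = (a - c • v) + c • v := by abel
    rw [this]
    exact Submodule.add_mem_sup hc (Submodule.smul_mem _ _ (Submodule.mem_span_singleton_self v))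
  have hbig : ∀ W : Submodule F V, 4 ≤ finrank F W → W ≤ P →
      3 ≤ finrank F (W ⊓ X' : Submodule F V) := by
    intro W hW hWP
    have h1 := Submodule.finrank_sup_add_finrank_inf_eq W X'
    have h3 : finrank F (W ⊔ X' : Submodule F V) ≤ finrank F P :=
      Submodule.finrank_mono (sup_le hWP le_sup_left)
    have h4 : finrank F P ≤ finrank F X' + 1 := by
      have := Submodule.finrank_add_le_finrank_add_finrank X' (Submodule.span F {v})
      rwa [finrank_span_singleton hv0] at this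
    omega
  by_cases hBP : B ⊓ Kv ≤ P
  · have h3 := hbig (B ⊓ Kv) (by
      have := finrank_inf_perp_one hQ B v
      change _ ≤ finrank F (B ⊓ Kv : Submodule F V) + 1 at this
      omega) hBP
    have h4 : 3 ≤ finrank F (B ⊓ X' : Submodule F V) :=
      h3.trans (Submodule.finrank_mono (inf_le_inf_right _ inf_le_left))
    exact hvA (hA.symm.le_of_three hQ hX.symm hnoB h4 hvX)
  · -- the radical part
    by_cases h4K : 4 ≤ finrank F ((A ⊓ Kv) ⊓ P : Submodule F V)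
    · have h3 := hbig _ h4K inf_le_right
      have h4 : 3 ≤ finrank F (A ⊓ X' : Submodule F V) :=
        h3.trans (Submodule.finrank_mono (inf_le_inf_right _ (inf_le_left.trans inf_le_left)))
      exact hvB (hA.le_of_three hQ hX.symm hnoA h4 hvX)
    have hkey : ∀ b ∈ B, polar Q b v = 0 → b ∉ P →
        3 ≤ finrank F ((A ⊓ Kv) ⊓ P : Submodule F V) ∧ ∀ a ∈ (A ⊓ Kv) ⊓ P, polar Q a b = 0 := by
      intro b hbB hbv' hbP
      obtain ⟨u₀, hu₀, hu₀v, hu₀b⟩ : ∃ u ∈ X', polar Q u v = 0 ∧ polar Q u b ≠ 0 := by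
        by_contra hc
        push Not at hc
        exact hbP (hP b hbv' hc)
      have hle : ((A ⊓ Kv) ⊓ perp Q (Submodule.span F {b})) ⊓ perp Q (Submodule.span F {u₀}) ≤ P := by
        rintro a ⟨⟨⟨haA, hav⟩, hab⟩, hau⟩
        have hav' : polar Q a v = 0 := (hKv a).1 hav
        have hab' : polar Q a b = 0 := mem_perp_one.1 hab
        have hau' : polar Q a u₀ = 0 := mem_perp_one.1 hau
        refine hP a hav' fun u hu huv => ?_
        have h1 := hA.dich hX hno hvX hv0 haA hbB hab' hav' hbv' hu huv hu₀ hu₀v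
        rw [hau', mul_zero] at h1
        exact (mul_eq_zero.1 h1).resolve_right (by rw [pc]; exact hu₀b)
      have hd : 3 ≤ finrank F (((A ⊓ Kv) ⊓ perp Q (Submodule.span F {b})) ⊓ perp Q (Submodule.span F {u₀}) :
          Submodule F V) := by
        have e1 := finrank_inf_perp_one hQ A v
        have e2 := finrank_inf_perp_one hQ (A ⊓ Kv) b
        have e3 := finrank_inf_perp_one hQ ((A ⊓ Kv) ⊓ perp Q (Submodule.span F {b})) u₀
        change _ ≤ finrank F (A ⊓ Kv : Submodule F V) + 1 at e1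
        omega
      have hsub : ((A ⊓ Kv) ⊓ perp Q (Submodule.span F {b})) ⊓ perp Q (Submodule.span F {u₀}) ≤
          (A ⊓ Kv) ⊓ P := le_inf (inf_le_left.trans inf_le_left) hle
      have hmono := Submodule.finrank_mono hsub
      have heq := Submodule.eq_of_le_of_finrank_eq hsub (by omega)
      refine ⟨by omega, fun a ha => ?_⟩
      rw [← heq] at ha
      exact mem_perp_one.1 ha.1.2
    obtain ⟨b₁, ⟨hb₁B, hb₁v⟩, hb₁P⟩ := SetLike.not_le_iff_exists.1 hBP
    have hb₁v' : polar Q b₁ v = 0 := (hKv b₁).1 hb₁v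
    obtain ⟨h3K, hb₁⟩ := hkey b₁ hb₁B hb₁v' hb₁P
    have hall : ∀ b ∈ B, polar Q b v = 0 → ∀ a ∈ (A ⊓ Kv) ⊓ P, polar Q a b = 0 := by
      intro b hbB hbv a ha
      by_cases hbP : b ∈ P
      · have hs : b + b₁ ∉ P := fun h => hb₁P (by
          have := P.sub_mem h hbP
          rwa [add_sub_cancel_left] at this)
        have h1 := (hkey (b + b₁) (B.add_mem hbB hb₁B) (by rw [pal, hbv, hb₁v', add_zero]) hs).2 a ha
        rw [par, hb₁ a ha, add_zero] at h1
        exact h1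
      · exact (hkey b hbB hbv hbP).2 a ha
    -- a vector of `B` not perpendicular to `v`
    obtain ⟨z, hzB, hzv⟩ : ∃ z ∈ B, polar Q z v ≠ 0 := by
      by_contra hc
      push Not at hc
      exact hvB (hA.symm.mem_of_perp hQ fun x hx => by rw [pc]; exact hc x hx)
    obtain ⟨x, hxK, hx0, hxz⟩ := exists_perp_list hQ (Y := ((A ⊓ Kv) ⊓ P : Submodule F V)) [z] (by
      simp only [List.length_singleton]; omega)
    replace hxz := hxz z (by simp)
    have hxB : ∀ b ∈ B, polar Q x b = 0 := by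
      intro b hb
      have h1 := hall (b - (polar Q b v / polar Q z v) • z) (B.sub_mem hb (B.smul_mem _ hzB)) (by
        rw [pdl, psl, div_mul_cancel₀ _ hzv, sub_self]) x hxK
      rw [pc, pdl, psl, pc Q z x, hxz, mul_zero, sub_zero] at h1
      rw [pc]; exact h1
    have hxA : x ∈ A := hxK.1.1
    apply hx0
    refine hQ.1 x fun y => ?_
    rw [pbil]
    obtain ⟨a, ha, b, hb, rfl⟩ := hA.exists_add y
    rw [par, hA.pol hxA ha, hxB b hb, add_zero]

/-- Overgroups of the stabiliser of a pair. -/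
theorem dichotomy6 (hQ : (polarBilin Q).Nondegenerate) {M : Subgroup (OGrp Q)} {A B : Submodule F V}
    (hgood : GoodP Q M A B) (hc : IsCompl A B) (hdA : 6 ≤ finrank F A) (hN : 7 ≤ finrank F V) (hdB : finrank F B = finrank F A)
    {s : OGrp Q} (hsM : s ∈ M) (hsA : ∀ a ∈ A, (s : V ≃ₗ[F] V) a ∈ B) (hsB : ∀ b ∈ B, (s : V ≃ₗ[F] V) b ∈ A) :
    commutator (OGrp Q) ≤ M ∨ ∀ g ∈ M, ((∀ x ∈ A, (g : V ≃ₗ[F] V) x ∈ A) ∧ (∀ x ∈ B, (g : V ≃ₗ[F] V) x ∈ B)) ∨
      ((∀ x ∈ A, (g : V ≃ₗ[F] V) x ∈ B) ∧ (∀ x ∈ B, (g : V ≃ₗ[F] V) x ∈ A)) := by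
  have hfull : (∃ v ∈ A, v ≠ 0 ∧ FullR M v) → commutator (OGrp Q) ≤ M := by
    rintro ⟨v, hv, hv0, hfv⟩
    have hfs := hfv.conj hsM
    have hsv := hsA v hv
    have hsv0 : (s : V ≃ₗ[F] V) v ≠ 0 := by
      intro h; exact hv0 ((s : V ≃ₗ[F] V).injective (h.trans (map_zero _).symm))
    -- a vector of `A` not perpendicular to `s v`
    obtain ⟨z, hz⟩ := exists_polar_ne hQ hsv0
    obtain ⟨y, hy, b, hb, rfl⟩ := hgood.exists_add z
    rw [pal, hgood.symm.pol hb hsv, add_zero] at hz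
    by_cases hvv : polar Q v ((s : V ≃ₗ[F] V) v) = 0
    · obtain ⟨g, hg, hgv⟩ := hgood.exists_move hQ hv (v' := v + y) (A.add_mem hv hy) (by
        rw [add_sub_cancel_left]
        intro h
        obtain ⟨c, hc⟩ := Submodule.mem_span_singleton.1 h
        have hvv' : c * polar Q y ((s : V ≃ₗ[F] V) v) = 0 := by rw [← psl, hc, hvv]
        rcases mul_eq_zero.1 hvv' with h0 | h0
        · rw [h0, zero_smul] at hc; exact hv0 hc.symm
        · exact hz h0)
      have hfg := hfv.conj hg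
      rw [hgv] at hfg
      exact commutator_le_of_FullR hQ hN hfs hfg (by rw [pal, hvv, zero_add]; exact hz)
    · exact commutator_le_of_FullR hQ hN hfs hfv hvv
  by_cases hcon : commutator (OGrp Q) ≤ M
  · exact Or.inl hcon
  right
  have hnfA : GoodP.NF M A B := by
    intro v hv hv0 w hw
    by_contra hwn
    exact hcon (hfull ⟨v, hv, hv0, hgood.full_of_not hQ (by omega) hv hv0 hw hwn⟩)
  have hnfB : GoodP.NF M B A := by
    intro v hv hv0 w hw
    by_contra hwn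
    refine hcon (hfull ⟨_, hsB v hv, ?_, (hgood.symm.full_of_not hQ (by omega) hv hv0 hw hwn).conj hsM⟩)
    intro h; exact hv0 ((s : V ≃ₗ[F] V).injective (h.trans (map_zero _).symm))
  have hmapNF : ∀ g ∈ M, ∀ X X' : Submodule F V, GoodP.NF M X X' →
      GoodP.NF M (X.map ((g : V ≃ₗ[F] V) : V →ₗ[F] V)) (X'.map ((g : V ≃ₗ[F] V) : V →ₗ[F] V)) := by
    rintro g hg X X' h _ ⟨v, hv, rfl⟩ hv0 w hw
    have hgi := hw.conj (M.inv_mem hg)
    have e : ((g⁻¹ : OGrp Q) : V ≃ₗ[F] V) (((g : V ≃ₗ[F] V) : V →ₗ[F] V) v) = v := coe_inv_apply_self g v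
    rw [e] at hgi
    have h1 := h v hv (by rintro rfl; exact hv0 (by simp)) _ hgi
    obtain ⟨y, hy, z, hz, hyz⟩ := Submodule.mem_sup.1 h1
    obtain ⟨c, rfl⟩ := Submodule.mem_span_singleton.1 hz
    have h2 : w = (g : V ≃ₗ[F] V) y + c • (g : V ≃ₗ[F] V) v := by
      rw [← map_smul, ← map_add, hyz, coe_apply_inv_self]
    rw [h2]
    exact Submodule.add_mem_sup ⟨y, hy, rfl⟩ (Submodule.smul_mem _ _ (Submodule.mem_span_singleton_self _))
  intro g hg
  have hX := hgood.map hg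
  have e0 := eq_of_nf6 hQ hgood hdA (by omega) hX (hmapNF g hg _ _ hnfA) hnfA hnfB
  have e1 := eq_of_nf6 hQ hgood hdA (by omega) hX.symm (hmapNF g hg _ _ hnfB) hnfA hnfB
  have hdm : ∀ W : Submodule F V, finrank F (W.map ((g : V ≃ₗ[F] V) : V →ₗ[F] V)) = finrank F W :=
    fun W => LinearEquiv.finrank_map_eq _ _
  have hdisj : ∀ C : Submodule F V, finrank F C = finrank F A → ¬ (A.map ((g : V ≃ₗ[F] V) : V →ₗ[F] V) ≤ C ∧
      B.map ((g : V ≃ₗ[F] V) : V →ₗ[F] V) ≤ C) := by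
    rintro C hC ⟨h3, h4⟩
    have h5 := Submodule.eq_of_le_of_finrank_eq h3 (by rw [hdm, hC])
    have h6 := Submodule.eq_of_le_of_finrank_eq h4 (by rw [hdm, hC, hdB])
    have h8 := Submodule.map_injective_of_injective (f := ((g : V ≃ₗ[F] V) : V →ₗ[F] V)) (g : V ≃ₗ[F] V).injective
      (h5.trans h6.symm)
    have h9 := hc.inf_eq_bot
    rw [h8, inf_idem] at h9
    rw [h9, finrank_bot] at hdB
    omega
  have hto : ∀ X C : Submodule F V, X.map ((g : V ≃ₗ[F] V) : V →ₗ[F] V) ≤ C → ∀ x ∈ X, (g : V ≃ₗ[F] V) x ∈ C :=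
    fun X C h x hx => h ⟨x, hx, rfl⟩
  rcases e0 with e0 | e0 <;> rcases e1 with e1 | e1
  · exact absurd ⟨e0, e1⟩ (hdisj A rfl)
  · exact Or.inl ⟨hto _ _ e0, hto _ _ e1⟩
  · exact Or.inr ⟨hto _ _ e0, hto _ _ e1⟩
  · exact absurd ⟨e0, e1⟩ (hdisj B hdB)

end

/-- Let F be a finite field with q elements, n ≥ 12, Q a non-degenerate quadratic form on F^n, and Ω the commutator subgroup of the isometry group of Q, viewed inside GL_n(F). Suppose n/2 is even and let D be a decomposition of F^n into two complementary subspaces of dimension n/2 on each of which Q vanishes. Then the elements of Ω preserving or interchanging the two subspaces form a maximal subgroup of Ω. -/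
theorem ts_pair {F : Type*} [Field F] [Fintype F] {n : ℕ} (hn : 12 ≤ n) (Q : (Fin n → F) → F) (hQ : Cfsg.Geo.IsNondegenerateQuadraticForm Q) (k : ℕ) (hk : 2 * k = n) (hke : Even k) (D : Fin 2 → Submodule F (Fin n → F)) (hD : Cfsg.Geo.IsMDecomposition k D) (hts : ∀ i, Cfsg.Geo.IsTotallySingularQuad Q (D i)) : Cfsg.Geo.IsMaximalIn (Cfsg.Geo.omegaGL Q) (Cfsg.Geo.decompositionStabilizer D ⊓ Cfsg.Geo.omegaGL Q) := by
  have hfr : Module.finrank F (Fin n → F) = n := by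
    rw [Module.finrank_fintype_fun_eq_card]; simp
  have hnd := Cfsg.Agent.GeoMax.Ort.toQF_nondeg hQ
  have hd0 := hD.finrank_eq 0
  have hd1 := hD.finrank_eq 1
  have hcompl : IsCompl (D 0) (D 1) := by
    constructor
    · exact hD.indep.pairwiseDisjoint (by decide)
    · rw [codisjoint_iff, ← hD.iSup_eq_top]
      apply le_antisymm
      · exact sup_le (le_iSup D 0) (le_iSup D 1)
      · refine iSup_le fun i => ?_
        fin_cases i
        · exact le_sup_left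
        · exact le_sup_right
  have hN : 7 ≤ Module.finrank F (Fin n → F) := by omega
  have ts : ∀ i, ∀ x ∈ D i, Cfsg.Agent.GeoMax.Ort.toQF hQ x = 0 := fun i x hx => hts i x hx
  have pD : ∀ i, ∀ x ∈ D i, ∀ y ∈ D i, QuadraticMap.polar (Cfsg.Agent.GeoMax.Ort.toQF hQ) x y = 0 :=
    fun i x hx y hy => Cfsg.Agent.Orth.TS.polar (ts i) hx hy
  have hdual : ∀ i j, D i ⊔ D j = ⊤ → ∀ a ∈ D i, a ≠ 0 → ∃ b ∈ D j, QuadraticMap.polar (Cfsg.Agent.GeoMax.Ort.toQF hQ) a b ≠ 0 := by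
    intro i j hij a ha ha0
    obtain ⟨z, hz⟩ := Cfsg.Agent.GeoMax.Ort.exists_polar_ne hnd ha0
    have hzt : z ∈ D i ⊔ D j := by rw [hij]; trivial
    obtain ⟨x, hx, y, hy, rfl⟩ := Submodule.mem_sup.1 hzt
    refine ⟨y, hy, ?_⟩
    rwa [Cfsg.Agent.Orth.pal, pD i x hx a ha, zero_add, Cfsg.Agent.Orth.pc] at hz
  have hd01 := hdual 0 1 hcompl.sup_eq_top
  have hd10 := hdual 1 0 (by rw [sup_comm]; exact hcompl.sup_eq_top)
  have htl : ∀ (g : Cfsg.Agent.Orth.OGrp (Cfsg.Agent.GeoMax.Ort.toQF hQ)) (W : Submodule F (Fin n → F)),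
      W.map (Matrix.toLin' (Cfsg.Agent.GeoMax.Ort.emGL (Cfsg.Agent.GeoMax.Ort.toQF hQ) g : Matrix (Fin n) (Fin n) F)) =
      W.map ((g : (Fin n → F) ≃ₗ[F] (Fin n → F)) : (Fin n → F) →ₗ[F] (Fin n → F)) := by
    intro g W
    congr 1
    ext1 i
    ext1
    rw [LinearMap.comp_apply, LinearMap.comp_apply, Matrix.toLin'_apply, Cfsg.Agent.GeoMax.Ort.emGL_mulVec]
    rfl
  let H' : Subgroup (Cfsg.Agent.Orth.OGrp (Cfsg.Agent.GeoMax.Ort.toQF hQ)) :=
    (Cfsg.Geo.decompositionStabilizer D).comap (Cfsg.Agent.GeoMax.Ort.emGL (Cfsg.Agent.GeoMax.Ort.toQF hQ))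
  have hmemH : ∀ g : Cfsg.Agent.Orth.OGrp (Cfsg.Agent.GeoMax.Ort.toQF hQ),
      ((∀ x ∈ D 0, (g : (Fin n → F) ≃ₗ[F] (Fin n → F)) x ∈ D 0) ∧ (∀ x ∈ D 1, (g : (Fin n → F) ≃ₗ[F] (Fin n → F)) x ∈ D 1)) ∨
      ((∀ x ∈ D 0, (g : (Fin n → F) ≃ₗ[F] (Fin n → F)) x ∈ D 1) ∧ (∀ x ∈ D 1, (g : (Fin n → F) ≃ₗ[F] (Fin n → F)) x ∈ D 0)) →
      g ∈ H' := by
    intro g hg
    have hmap : ∀ i j, (∀ x ∈ D i, (g : (Fin n → F) ≃ₗ[F] (Fin n → F)) x ∈ D j) →
        (D i).map (Matrix.toLin' (Cfsg.Agent.GeoMax.Ort.emGL (Cfsg.Agent.GeoMax.Ort.toQF hQ) g : Matrix (Fin n) (Fin n) F)) = D j := by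
      intro i j h
      rw [htl]
      refine Submodule.eq_of_le_of_finrank_eq ?_ ?_
      · rintro _ ⟨x, hx, rfl⟩
        exact h x hx
      · rw [LinearEquiv.finrank_map_eq, hD.finrank_eq, hD.finrank_eq]
    rcases hg with ⟨h1, h3⟩ | ⟨h1, h3⟩
    · refine ⟨1, fun i => ?_⟩
      rw [Equiv.Perm.one_apply]
      fin_cases i
      · exact hmap 0 0 h1
      · exact hmap 1 1 h3
    · refine ⟨Equiv.swap 0 1, fun i => ?_⟩
      fin_cases i
      · exact (hmap 0 1 h1).trans (by simp)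
      · exact (hmap 1 0 h3).trans (by simp)
  refine Cfsg.Agent.GeoMax.Ort.isMaximalIn_omegaGL (Cfsg.Agent.GeoMax.Ort.toQF hQ) (H' := H') (fun g => Iff.rfl) ?_
  constructor
  · refine lt_of_le_of_ne inf_le_right ?_
    intro heq
    obtain ⟨a1, ha1, ha10⟩ := Submodule.exists_mem_ne_zero_of_ne_bot (p := D 0) (by
      intro h; rw [h, finrank_bot] at hd0; omega)
    obtain ⟨b1, hb1, hab1⟩ := hd01 a1 ha1 ha10
    obtain ⟨a2, ha2, ha20, ha2b⟩ := Cfsg.Agent.GeoMax.Ort.exists_perp_list hnd (Y := D 0) [b1] (by simp; omega)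
    replace ha2b := ha2b b1 (by simp)
    have hmem : Cfsg.Agent.Orth.eich (Cfsg.Agent.GeoMax.Ort.toQF hQ) a1 a2 (ts 0 a1 ha1) (pD 0 a1 ha1 a2 ha2) ∈
        H' ⊓ commutator (Cfsg.Agent.Orth.OGrp (Cfsg.Agent.GeoMax.Ort.toQF hQ)) := by
      rw [heq]
      exact Cfsg.Agent.GeoMax.Ort.eich_mem_commutator hnd hN _ _
    obtain ⟨σ, hσ⟩ := hmem.1
    have h1 := hσ 1
    rw [htl] at h1
    have h0 := hσ 0
    rw [htl] at h0
    have hc1 : ((Cfsg.Agent.Orth.eich (Cfsg.Agent.GeoMax.Ort.toQF hQ) a1 a2 (ts 0 a1 ha1) (pD 0 a1 ha1 a2 ha2) :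
        Cfsg.Agent.Orth.OGrp (Cfsg.Agent.GeoMax.Ort.toQF hQ)) : (Fin n → F) ≃ₗ[F] (Fin n → F)) a1 ∈ D (σ 0) := by
      rw [← h0]; exact ⟨a1, ha1, rfl⟩
    have hc2 : ((Cfsg.Agent.Orth.eich (Cfsg.Agent.GeoMax.Ort.toQF hQ) a1 a2 (ts 0 a1 ha1) (pD 0 a1 ha1 a2 ha2) :
        Cfsg.Agent.Orth.OGrp (Cfsg.Agent.GeoMax.Ort.toQF hQ)) : (Fin n → F) ≃ₗ[F] (Fin n → F)) b1 ∈ D (σ 1) := by
      rw [← h1]; exact ⟨b1, hb1, rfl⟩
    rw [Cfsg.Agent.Orth.eich_apply, pD 0 a1 ha1 a2 ha2, pD 0 a1 ha1 a1 ha1, zero_smul, zero_smul, mul_zero, zero_smul, add_zero,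
      sub_zero, sub_zero] at hc1
    have hσ0 : σ 0 = 0 := by
      rcases (show σ 0 = 0 ∨ σ 0 = 1 by omega) with h | h
      · exact h
      · rw [h] at hc1
        exact absurd ((Submodule.disjoint_def.1 hcompl.disjoint) a1 ha1 hc1) ha10
    have hσ1 : σ 1 = 1 := by
      rcases (show σ 1 = 0 ∨ σ 1 = 1 by omega) with h | h
      · exact absurd (σ.injective (h.trans hσ0.symm)) (by decide)
      · exact h
    rw [hσ1, Cfsg.Agent.Orth.eich_apply, Cfsg.Agent.Orth.pc _ b1 a2, ha2b, ts 0 a2 ha2, zero_smul, add_zero, zero_mul, zero_smul,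
      sub_zero] at hc2
    have h3 := (D 1).sub_mem hb1 hc2
    rw [sub_sub_cancel] at h3
    have h4 := (Submodule.disjoint_def.1 hcompl.disjoint) _ ((D 0).smul_mem _ ha2) h3
    rcases smul_eq_zero.1 h4 with h | h
    · exact hab1 (by rw [Cfsg.Agent.Orth.pc]; exact h)
    · exact ha20 h
  · intro M hHM hMI
    have hgood : Cfsg.Agent.GeoMax.Ort.GoodP (Cfsg.Agent.GeoMax.Ort.toQF hQ) M (D 0) (D 1) := by
      refine ⟨ts 0, ts 1, hcompl.sup_eq_top, fun x hx x' hx' h0 => ⟨ts 0 x hx, h0, hHM ⟨hmemH _ (Or.inl ⟨?_, ?_⟩),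
        Cfsg.Agent.GeoMax.Ort.eich_mem_commutator hnd hN _ _⟩⟩⟩
      · intro y hy
        rw [Cfsg.Agent.Orth.eich_apply, pD 0 y hy x hx, zero_smul, sub_zero, mul_zero, zero_smul, sub_zero]
        exact (D 0).add_mem hy ((D 0).smul_mem _ hx)
      · intro y hy
        rw [Cfsg.Agent.Orth.eich_apply, pD 1 y hy x' hx', zero_smul, add_zero, ts 1 x' hx', zero_mul, zero_smul, sub_zero]
        exact (D 1).sub_mem hy ((D 1).smul_mem _ hx')
    obtain ⟨j, hj⟩ := hke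
    obtain ⟨s, hsI, hs0, hs1, -⟩ := Cfsg.Agent.GeoMax.Ort.exists_swap hnd hN j (D 0) (D 1) (by omega) (by omega) (ts 0) (ts 1)
      hd01 hd10
    have hsM : s ∈ M := hHM ⟨hmemH s (Or.inr ⟨hs0, hs1⟩), hsI⟩
    rcases dichotomy6 hnd hgood hcompl (by omega) (by omega) (by omega) hsM hs0 hs1 with h | h
    · exact Or.inr (le_antisymm hMI h)
    · exact Or.inl (le_antisymm (fun g hg => ⟨hmemH g (h g hg), hMI hg⟩) hHM)

end Cfsg.Agent.H23.OT12
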