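import Cfsg.Agent.H41.TorusSylow
import Cfsg.Agent.H92.RtRR
import Cfsg.Agent.JY.List
import Cfsg.Agent.GWP.PGLid

/-!
Facts about `PSL₂(q)`, `q + 1 = 4 m`, `m` odd: the centraliser of an involution, its cyclic subgroup of order `m`,
the rotation of a four-group (S2755).
-/

set_option autoImplicit false

namespace Cfsg.Agent.H23.PT

open Cfsg.Agent.H41

variable {F : Type*} [Field F]

/-- the projection -/
def pr : Matrix.SpecialLinearGroup (Fin 2) F →* Matrix.ProjectiveSpecialLinearGroup (Fin 2) F := QuotientGroup.mk' _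

theorem pr_surj : Function.Surjective (pr (F := F)) := QuotientGroup.mk'_surjective _

theorem pr_eq {A B : Matrix.SpecialLinearGroup (Fin 2) F} : pr A = pr B ↔ A = B ∨ A = -B := psl2_mk_eq_iff

theorem pr_eq_one {A : Matrix.SpecialLinearGroup (Fin 2) F} : pr A = 1 ↔ A = 1 ∨ A = -1 := psl2_mk_eq_one_iff

theorem pr_neg (A : Matrix.SpecialLinearGroup (Fin 2) F) : pr (-A) = pr A := pr_eq.2 (Or.inr rfl)

/-- `[0 1; -1 0]` -/
def W (F : Type*) [Field F] : Matrix.SpecialLinearGroup (Fin 2) F := mk4 0 1 (-1) 0 (by ring)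

/-- `[x y; y -x]` -/
def S (x y : F) (h : x ^ 2 + y ^ 2 = -1) : Matrix.SpecialLinearGroup (Fin 2) F :=
  mk4 x y y (-x) (by linear_combination -h)

/-- `(1 + W + S + W S) / 2` -/
def R (x y c : F) (h : x ^ 2 + y ^ 2 = -1) (hc : 2 * c = 1) : Matrix.SpecialLinearGroup (Fin 2) F :=
  mk4 (c * (1 + x + y)) (c * (1 + y - x)) (c * (-1 + y - x)) (c * (1 - x - y))
    (by linear_combination (-2 * c ^ 2) * h + (2 * c + 1) * hc)

theorem W_00 : (W F) 0 0 = 0 := rfl
theorem W_01 : (W F) 0 1 = 1 := rfl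
theorem W_10 : (W F) 1 0 = -1 := rfl
theorem W_11 : (W F) 1 1 = 0 := rfl

theorem comm_W {g : Matrix.SpecialLinearGroup (Fin 2) F} : g * W F = W F * g ↔ (g 1 1 = g 0 0 ∧ g 1 0 = -g 0 1) := by
  constructor
  · intro h
    have h0 := congrArg (fun y : Matrix.SpecialLinearGroup (Fin 2) F => y 0 0) h
    have h1 := congrArg (fun y : Matrix.SpecialLinearGroup (Fin 2) F => y 0 1) h
    simp only [mul_00, mul_01, W_00, W_01, W_10, W_11] at h0 h1
    constructor
    · linear_combination -h1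
    · linear_combination -h0
  · rintro ⟨h0, h1⟩
    apply sl2_ext <;> simp only [mul_00, mul_01, mul_10, mul_11, W_00, W_01, W_10, W_11, h0, h1] <;> ring

theorem anti_W {g : Matrix.SpecialLinearGroup (Fin 2) F} (h : g * W F = -(W F * g)) : g 1 1 = -g 0 0 ∧ g 1 0 = g 0 1 := by
  have h0 := congrArg (fun y : Matrix.SpecialLinearGroup (Fin 2) F => y 0 0) h
  have h1 := congrArg (fun y : Matrix.SpecialLinearGroup (Fin 2) F => y 0 1) h
  simp only [neg_00, neg_01, mul_00, mul_01, W_00, W_01, W_10, W_11] at h0 h1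
  constructor
  · linear_combination h1
  · linear_combination h0

theorem S_W (x y : F) (h : x ^ 2 + y ^ 2 = -1) : S x y h * W F = -(W F * S x y h) := by
  apply sl2_ext <;> simp only [neg_00, neg_01, neg_10, neg_11, mul_00, mul_01, mul_10, mul_11, W, S, mk4_00, mk4_01,
    mk4_10, mk4_11] <;> ring

theorem W_sq : W F * W F = -1 := by
  apply sl2_ext <;> simp [mul_00, mul_01, mul_10, mul_11, W]

theorem S_sq (x y : F) (h : x ^ 2 + y ^ 2 = -1) : S x y h * S x y h = -1 := by
  apply sl2_ext <;> simp [mul_00, mul_01, mul_10, mul_11, S]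
  · linear_combination h
  · ring
  · ring
  · linear_combination h

theorem R_W (x y c : F) (h : x ^ 2 + y ^ 2 = -1) (hc : 2 * c = 1) : R x y c h hc * W F = S x y h * R x y c h hc := by
  apply sl2_ext <;> simp [mul_00, mul_01, mul_10, mul_11, S, W, R]
  · linear_combination (-c) * h
  · linear_combination c * h
  · linear_combination (-c) * h
  · linear_combination (-c) * h

theorem R_S (x y c : F) (h : x ^ 2 + y ^ 2 = -1) (hc : 2 * c = 1) :
    R x y c h hc * S x y h = (W F * S x y h) * R x y c h hc := by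
  apply sl2_ext <;> simp [mul_00, mul_01, mul_10, mul_11, S, W, R] <;> ring

theorem cube_of_tr {g : Matrix.SpecialLinearGroup (Fin 2) F} (ht : g 0 0 + g 1 1 = 1) : g * g * g = -1 := by
  have hd := det_eq g
  apply sl2_ext <;> simp only [neg_00, neg_01, neg_10, neg_11, one_00, one_01, one_10, one_11,
    mul_00, mul_01, mul_10, mul_11]
  · linear_combination (-(2 * g 0 0 + g 1 1)) * hd + (g 0 0 * (g 0 0 + g 1 1 + 1) - 1) * ht
  · linear_combination g 0 1 * (g 0 0 + g 1 1 + 1) * ht - g 0 1 * hd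
  · linear_combination g 1 0 * (g 0 0 + g 1 1 + 1) * ht - g 1 0 * hd
  · linear_combination (-(g 0 0 + 2 * g 1 1)) * hd + (g 1 1 * (g 0 0 + g 1 1 + 1) - 1) * ht

theorem R_cube (x y c : F) (h : x ^ 2 + y ^ 2 = -1) (hc : 2 * c = 1) :
    R x y c h hc * R x y c h hc * R x y c h hc = -1 := by
  apply cube_of_tr
  simp only [R, mk4_00, mk4_11]
  linear_combination hc

theorem two_ne (c : F) (hc : 2 * c = 1) : (2 : F) ≠ 0 := by
  intro h; rw [h, zero_mul] at hc; exact zero_ne_one hc

theorem sq_eq_one (h2 : (2 : F) ≠ 0) {g : Matrix.SpecialLinearGroup (Fin 2) F} (h : g * g = 1) : g = 1 ∨ g = -1 := by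
  have h1 : g = g⁻¹ := eq_inv_of_mul_eq_one_left h
  have e0 := congrArg (fun y : Matrix.SpecialLinearGroup (Fin 2) F => y 0 0) h1
  have e1 := congrArg (fun y : Matrix.SpecialLinearGroup (Fin 2) F => y 0 1) h1
  have e2 := congrArg (fun y : Matrix.SpecialLinearGroup (Fin 2) F => y 1 0) h1
  simp only [inv_00, inv_01, inv_10] at e0 e1 e2
  have f1 : g 0 1 = 0 := by
    have : 2 * g 0 1 = 0 := by linear_combination e1
    exact (mul_eq_zero.1 this).resolve_left h2
  have f2 : g 1 0 = 0 := by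
    have : 2 * g 1 0 = 0 := by linear_combination e2
    exact (mul_eq_zero.1 this).resolve_left h2
  have hd := det_eq g
  rw [f1, ← e0] at hd
  have f0 : g 0 0 * g 0 0 = 1 := by linear_combination hd
  rcases mul_self_eq_one_iff.1 f0 with f | f
  · left
    apply sl2_ext
    · rw [f, one_00]
    · rw [f1, one_01]
    · rw [f2, one_10]
    · rw [← e0, f, one_11]
  · right
    apply sl2_ext
    · rw [f, neg_00, one_00]
    · rw [f1, neg_01, one_01, neg_zero]
    · rw [f2, neg_10, one_10, neg_zero]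
    · rw [← e0, f, neg_11, one_11]

/-- the torus: centraliser of `W` -/
def T (F : Type*) [Field F] : Subgroup (Matrix.SpecialLinearGroup (Fin 2) F) := Subgroup.centralizer {W F}

theorem mem_T {g : Matrix.SpecialLinearGroup (Fin 2) F} : g ∈ T F ↔ (g 1 1 = g 0 0 ∧ g 1 0 = -g 0 1) := by
  unfold T
  rw [Subgroup.mem_centralizer_singleton_iff, comm_W]

theorem neg_mem_T {g : Matrix.SpecialLinearGroup (Fin 2) F} (h : g ∈ T F) : -g ∈ T F := by
  rw [mem_T] at h ⊢
  rw [neg_00, neg_01, neg_10, neg_11, h.1, h.2]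
  exact ⟨rfl, rfl⟩

/-- image of the torus -/
def C0 (F : Type*) [Field F] : Subgroup (Matrix.ProjectiveSpecialLinearGroup (Fin 2) F) := (T F).map pr

theorem mem_C0 {g : Matrix.SpecialLinearGroup (Fin 2) F} : pr g ∈ C0 F ↔ g ∈ T F := by
  constructor
  · rintro ⟨t, ht, he⟩
    rcases pr_eq.1 he with h | h
    · rw [← h]; exact ht
    · have : g = -t := by rw [h, neg_neg]
      rw [this]; exact neg_mem_T ht
  · intro h; exact ⟨g, h, rfl⟩

/-- `k` -/
def k (F : Type*) [Field F] : Matrix.ProjectiveSpecialLinearGroup (Fin 2) F := pr (W F)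

theorem W_mem_T : W F ∈ T F := mem_T.2 ⟨rfl, rfl⟩

theorem C0_comm {a b : Matrix.ProjectiveSpecialLinearGroup (Fin 2) F} (ha : a ∈ C0 F) (hb : b ∈ C0 F) : a * b = b * a := by
  obtain ⟨s, hs, rfl⟩ := ha
  obtain ⟨t, ht, rfl⟩ := hb
  rw [← map_mul, ← map_mul]
  congr 1
  have h1 := mem_T.1 hs
  have h2 := mem_T.1 ht
  apply sl2_ext <;> simp only [mul_00, mul_01, mul_10, mul_11, h1.1, h1.2, h2.1, h2.2] <;> ring

theorem comm_k {g : Matrix.SpecialLinearGroup (Fin 2) F} (h : pr g * k F = k F * pr g) :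
    g * W F = W F * g ∨ g * W F = -(W F * g) := by
  unfold k at h
  rw [← map_mul, ← map_mul, pr_eq] at h
  exact h

theorem k_ne_one : k F ≠ 1 := by
  unfold k
  rw [Ne, pr_eq_one]
  rintro (h | h)
  · have := congrArg (fun y : Matrix.SpecialLinearGroup (Fin 2) F => y 0 1) h
    simp [W_01] at this
  · have := congrArg (fun y : Matrix.SpecialLinearGroup (Fin 2) F => y 0 1) h
    simp only [W_01, neg_01, one_01, neg_zero] at this
    exact one_ne_zero this

theorem k_sq : k F * k F = 1 := by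
  unfold k
  rw [← map_mul, W_sq, pr_neg, map_one]

/-- the only involution of `C0` is `k` -/
theorem T_anti {g : Matrix.SpecialLinearGroup (Fin 2) F} (hg : g ∈ T F) (h0 : g 0 0 = 0) :
    pr g = k F := by
  have h := mem_T.1 hg
  have hd := det_eq g
  rw [h.1, h.2, h0] at hd
  have h1 : g 0 1 * g 0 1 = 1 := by linear_combination hd
  unfold k
  rw [pr_eq]
  rcases mul_self_eq_one_iff.1 h1 with h3 | h3
  · left
    apply sl2_ext
    · rw [h0, W_00]
    · rw [h3, W_01]
    · rw [h.2, h3, W_10]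
    · rw [h.1, h0, W_11]
  · right
    apply sl2_ext
    · rw [h0, neg_00, W_00, neg_zero]
    · rw [h3, neg_01, W_01]
    · rw [h.2, h3, neg_10, W_10]
    · rw [h.1, h0, neg_11, W_11, neg_zero]

theorem noEig_W [Fintype F] {m : ℕ} (hqm : Fintype.card F + 1 = 4 * m) : NoEig (tr (W F)) := by
  intro a ha
  have h1 : IsSquare (-1 : F) := by
    refine ⟨a, ?_⟩
    have h3 : tr (W F) = 0 := by
      change (W F) 0 0 + (W F) 1 1 = 0
      rw [W_00, W_11, add_zero]
    rw [h3] at ha
    linear_combination -ha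
  rw [FiniteField.isSquare_neg_one_iff] at h1
  omega

theorem ex_xy [Fintype F] (hodd : Fintype.card F % 2 = 1) : ∃ x y : F, x ^ 2 + y ^ 2 = -1 := by
  obtain ⟨a, b, h⟩ := FiniteField.exists_root_sum_quadratic (R := F) (f := Polynomial.X ^ 2)
    (g := Polynomial.X ^ 2 + Polynomial.C 1) (by simp) (Polynomial.degree_X_pow_add_C (by norm_num) _) hodd
  refine ⟨a, b, ?_⟩
  simp at h
  linear_combination h

section main

variable [Fintype F] {m : ℕ} (hqm : Fintype.card F + 1 = 4 * m) (hm : Odd m)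

include hqm

theorem two_ne' : (2 : F) ≠ 0 := by
  apply GWP.two_ne_zero_of_odd
  rw [Nat.odd_iff]; omega

theorem exists_gen : ∃ τ : Matrix.SpecialLinearGroup (Fin 2) F, τ ∈ T F ∧ orderOf τ = 4 * m ∧
    ∀ g ∈ T F, g ∈ Subgroup.zpowers τ := by
  obtain ⟨h1, h2⟩ := centralizer_of_noEig (W F) (noEig_W hqm)
  change IsCyclic (T F) at h1
  change Nat.card (T F) = _ at h2
  obtain ⟨τ, hτ⟩ := h1.exists_generator
  refine ⟨τ, τ.2, ?_, ?_⟩
  · rw [Subgroup.orderOf_coe, orderOf_eq_card_of_forall_mem_zpowers hτ, h2, Nat.card_eq_fintype_card, hqm]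
  · intro g hg
    obtain ⟨i, hi⟩ := hτ ⟨g, hg⟩
    exact ⟨i, congrArg Subtype.val hi⟩

theorem orderOf_pr {τ : Matrix.SpecialLinearGroup (Fin 2) F} (hτ : orderOf τ = 4 * m) : orderOf (pr τ) = 2 * m := by
  have key : ∀ i : ℕ, pr τ ^ i = 1 ↔ 2 * m ∣ i := by
    intro i
    rw [← map_pow, pr_eq_one]
    constructor
    · intro h
      have h1 : τ ^ (2 * i) = 1 := by
        rw [mul_comm, pow_mul, pow_two]
        rcases h with h | h <;> rw [h] <;> simp
      have h3 := orderOf_dvd_of_pow_eq_one h1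
      rw [hτ, show 4 * m = 2 * (2 * m) by ring] at h3
      exact Nat.dvd_of_mul_dvd_mul_left (by norm_num) h3
    · intro h
      apply sq_eq_one (two_ne' hqm)
      rw [← pow_add, ← orderOf_dvd_iff_pow_eq_one, hτ, ← two_mul, show 4 * m = 2 * (2 * m) by ring]
      exact Nat.mul_dvd_mul_left 2 h
  apply Nat.dvd_antisymm
  · exact orderOf_dvd_of_pow_eq_one ((key _).2 dvd_rfl)
  · exact (key _).1 (pow_orderOf_eq_one _)

omit hqm [Fintype F] in
theorem S_inv (x y : F) (h : x ^ 2 + y ^ 2 = -1) {t : Matrix.SpecialLinearGroup (Fin 2) F} (ht : t ∈ T F) :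
    S x y h * t = t⁻¹ * S x y h := by
  have h1 := mem_T.1 ht
  apply sl2_ext <;> simp only [mul_00, mul_01, mul_10, mul_11, inv_00, inv_01, inv_10, inv_11, h1.1, h1.2, S,
    mk4_00, mk4_01, mk4_10, mk4_11] <;> ring

omit hqm [Fintype F] in
theorem pr_S_inv (x y : F) (h : x ^ 2 + y ^ 2 = -1) {a : Matrix.ProjectiveSpecialLinearGroup (Fin 2) F} (ha : a ∈ C0 F) :
    pr (S x y h) * a * (pr (S x y h))⁻¹ = a⁻¹ := by
  obtain ⟨t, ht, rfl⟩ := ha
  rw [← map_mul, S_inv x y h ht, map_mul, mul_inv_cancel_right, map_inv]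

theorem S_ne (x y : F) (h : x ^ 2 + y ^ 2 = -1) : S x y h ∉ T F := by
  intro hT
  have h1 := mem_T.1 hT
  simp only [S, mk4_00, mk4_01, mk4_10, mk4_11] at h1
  have h2 := two_ne' hqm
  have hx : x = 0 := by
    have : 2 * x = 0 := by linear_combination -h1.1
    exact (mul_eq_zero.1 this).resolve_left h2
  have hy : y = 0 := by
    have : 2 * y = 0 := by linear_combination h1.2
    exact (mul_eq_zero.1 this).resolve_left h2
  rw [hx, hy] at h
  have : (1 : F) = 0 := by linear_combination h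
  exact one_ne_zero this

/-- elements commuting with an element of `C0` other than `1`, `k` -/
theorem comm_C0 {a g : Matrix.ProjectiveSpecialLinearGroup (Fin 2) F} (ha : a ∈ C0 F) (ha1 : a ≠ 1) (hak : a ≠ k F)
    (h : g * a = a * g) : g ∈ C0 F := by
  obtain ⟨t, ht, rfl⟩ := ha
  obtain ⟨g, rfl⟩ := pr_surj g
  rw [mem_C0]
  have h1 := mem_T.1 ht
  have hd := det_eq t
  have h2 := two_ne' hqm
  rw [← map_mul, ← map_mul, pr_eq] at h
  have hb : t 0 1 ≠ 0 := by
    intro hb
    apply ha1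
    rw [pr_eq_one]
    rw [h1.1, h1.2, hb] at hd
    have h3 : t 0 0 * t 0 0 = 1 := by linear_combination hd
    rcases mul_self_eq_one_iff.1 h3 with h4 | h4
    · left
      apply sl2_ext
      · rw [h4, one_00]
      · rw [hb, one_01]
      · rw [h1.2, hb, one_10, neg_zero]
      · rw [h1.1, h4, one_11]
    · right
      apply sl2_ext
      · rw [h4, neg_00, one_00]
      · rw [hb, neg_01, one_01, neg_zero]
      · rw [h1.2, hb, neg_10, one_10]
      · rw [h1.1, h4, neg_11, one_11]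
  rcases h with h | h
  · have e0 := congrArg (fun y : Matrix.SpecialLinearGroup (Fin 2) F => y 0 0) h
    have e1 := congrArg (fun y : Matrix.SpecialLinearGroup (Fin 2) F => y 0 1) h
    simp only [mul_00, mul_01, h1.1, h1.2] at e0 e1
    rw [mem_T]
    constructor
    · apply mul_left_cancel₀ hb
      linear_combination -e1
    · apply mul_left_cancel₀ hb
      linear_combination -e0
  · exfalso
    apply hak
    apply T_anti ht
    have e : g * t * g⁻¹ = -t := by
      rw [h, neg_mul, mul_assoc, mul_inv_cancel, mul_one]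
    have e1 := tr_conj t g
    rw [e, tr_neg] at e1
    have e2 : tr t = 2 * t 0 0 := by
      change t 0 0 + t 1 1 = _
      rw [h1.1]; ring
    rw [e2] at e1
    have e3 : 2 * (2 * t 0 0) = 0 := by linear_combination -e1
    exact (mul_eq_zero.1 ((mul_eq_zero.1 e3).resolve_left h2)).resolve_left h2

/-- fusion in `C0` -/
theorem conj_C0 {a g : Matrix.ProjectiveSpecialLinearGroup (Fin 2) F} (ha : a ∈ C0 F) (h : g * a * g⁻¹ ∈ C0 F) :
    g * a * g⁻¹ = a ∨ g * a * g⁻¹ = a⁻¹ := by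
  obtain ⟨t, ht, rfl⟩ := ha
  obtain ⟨g, rfl⟩ := pr_surj g
  rw [← map_inv, ← map_mul, ← map_mul] at h ⊢
  rw [mem_C0] at h
  have h1 := mem_T.1 ht
  have h2 := mem_T.1 h
  have hd := det_eq t
  have hd' := det_eq (g * t * g⁻¹)
  have e1 := tr_conj t g
  obtain ⟨t', ht'⟩ : ∃ t', t' = g * t * g⁻¹ := ⟨_, rfl⟩
  rw [← ht'] at h2 hd' e1 ⊢
  change t' 0 0 + t' 1 1 = t 0 0 + t 1 1 at e1
  rw [h1.1, h2.1] at e1
  have e2 : t' 0 0 = t 0 0 := by
    apply mul_left_cancel₀ (two_ne' hqm)
    linear_combination e1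
  rw [h1.1, h1.2] at hd
  rw [h2.1, h2.2, e2] at hd'
  have e3 : t' 0 1 * t' 0 1 = t 0 1 * t 0 1 := by linear_combination hd' - hd
  rcases mul_self_eq_mul_self_iff.1 e3 with e4 | e4
  · left
    congr 1
    apply sl2_ext
    · exact e2
    · exact e4
    · rw [h2.2, e4, h1.2]
    · rw [h2.1, e2, h1.1]
  · right
    rw [← map_inv]
    congr 1
    apply sl2_ext
    · rw [e2, inv_00, h1.1]
    · rw [e4, inv_01]
    · rw [h2.2, e4, inv_10, h1.2]
    · rw [h2.1, e2, inv_11]

omit hqm [Fintype F] in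
theorem cent_k_le {g : Matrix.ProjectiveSpecialLinearGroup (Fin 2) F} (h : g ∈ C0 F) : g * k F = k F * g :=
  C0_comm h (mem_C0.2 W_mem_T)

/-- the centraliser of `k` -/
theorem cent_k (x y : F) (h : x ^ 2 + y ^ 2 = -1) {g : Matrix.ProjectiveSpecialLinearGroup (Fin 2) F}
    (hg : g * k F = k F * g) : (g ∈ C0 F ∧ g * pr (S x y h) ∉ C0 F) ∨ (g ∉ C0 F ∧ g * pr (S x y h) ∈ C0 F) := by
  obtain ⟨g, rfl⟩ := pr_surj g
  rw [← map_mul, mem_C0, mem_C0]
  rcases comm_k hg with h1 | h1
  · left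
    have h2 : g ∈ T F := by
      unfold T; rw [Subgroup.mem_centralizer_singleton_iff]; exact h1
    refine ⟨h2, fun h3 => S_ne hqm x y h (((T F).mul_mem_cancel_left h2).1 h3)⟩
  · right
    have h2 : g * S x y h ∈ T F := by
      unfold T; rw [Subgroup.mem_centralizer_singleton_iff, mul_assoc, S_W, mul_neg, ← mul_assoc, h1, neg_mul, neg_neg,
        mul_assoc]
    exact ⟨fun h3 => S_ne hqm x y h (((T F).mul_mem_cancel_left h3).1 h2), h2⟩

end main

/-- the second half of the facts about `PSL₂(q)` -/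
structure KB {K : Type*} [Group K] (m : ℕ) (A : Subgroup K) (k s r : K) : Prop where
  k1 : k ≠ 1
  k2 : k * k = 1
  kconj : ∀ x : K, x ≠ 1 → x * x = 1 → ∃ g : K, g * x * g⁻¹ = k
  cardCk : Nat.card (Subgroup.centralizer ({k} : Set K)) = 4 * m
  cardA : Nat.card A = m
  Acyc : IsCyclic A
  Ak : ∀ a ∈ A, a * k = k * a
  s1 : s ≠ 1
  s2 : s * s = 1
  sk : s ≠ k
  sck : s * k = k * s
  sA : ∀ a ∈ A, s * a * s⁻¹ = a⁻¹
  Acent : ∀ a ∈ A, a ≠ 1 → ∀ g : K, g * a = a * g → ∃ b ∈ A, g = b ∨ g = k * b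
  ATI : ∀ g a : K, a ∈ A → a ≠ 1 → g * a * g⁻¹ ∈ A → g * a * g⁻¹ = a ∨ g * a * g⁻¹ = a⁻¹
  r3 : r ^ 3 = 1
  rk : r * k * r⁻¹ = s
  rs : r * s * r⁻¹ = k * s

theorem kb_psl [Fintype F] {m : ℕ} (hqm : Fintype.card F + 1 = 4 * m) (hm : Odd m) :
    ∃ (A : Subgroup (Matrix.ProjectiveSpecialLinearGroup (Fin 2) F))
      (k s r : Matrix.ProjectiveSpecialLinearGroup (Fin 2) F), KB m A k s r := by
  have h2 := two_ne' hqm
  have hm0 : 0 < m := by
    rcases Nat.eq_zero_or_pos m with h | h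
    · rw [h] at hm; exact absurd hm (by decide)
    · exact h
  obtain ⟨x, y, h⟩ := ex_xy (F := F) (by omega)
  obtain ⟨c, hc⟩ : ∃ c : F, 2 * c = 1 := ⟨2⁻¹, mul_inv_cancel₀ h2⟩
  obtain ⟨τ, hτT, hτ, hgen⟩ := exists_gen hqm
  have hτb := orderOf_pr hqm hτ
  have hτC : pr τ ∈ C0 F := mem_C0.2 hτT
  have hoA : orderOf (pr τ ^ 2) = m := by
    rw [orderOf_pow, hτb, Nat.gcd_comm, Nat.gcd_mul_right_right]
    simp
  have hgC : ∀ g ∈ C0 F, ∃ i : ℤ, g = pr τ ^ i := by
    rintro _ ⟨g, hg, rfl⟩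
    obtain ⟨i, hi⟩ := hgen g hg
    exact ⟨i, by rw [← map_zpow]; exact congrArg pr hi.symm⟩
  have hcC : Nat.card (C0 F) = 2 * m := by
    rw [← hτb, ← Nat.card_zpowers]
    have : C0 F = Subgroup.zpowers (pr τ) := by
      apply le_antisymm
      · intro g hg
        obtain ⟨i, hi⟩ := hgC g hg
        exact ⟨i, hi.symm⟩
      · rw [Subgroup.zpowers_le]; exact hτC
    rw [this]
  have hAC : Subgroup.zpowers (pr τ ^ 2) ≤ C0 F := by
    rw [Subgroup.zpowers_le]; exact (C0 F).pow_mem hτC 2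
  have hkA : k F ∉ Subgroup.zpowers (pr τ ^ 2) := by
    intro hk
    have h1 : orderOf (k F) ∣ Nat.card (Subgroup.zpowers (pr τ ^ 2)) := Subgroup.orderOf_dvd_natCard _ hk
    rw [Nat.card_zpowers, hoA] at h1
    have h3 : orderOf (k F) = 2 := orderOf_eq_prime (by rw [pow_two, k_sq]) k_ne_one
    rw [h3] at h1
    exact (Nat.not_even_iff_odd.2 hm) (even_iff_two_dvd.2 h1)
  have hsplit : ∀ g ∈ C0 F, ∃ b ∈ Subgroup.zpowers (pr τ ^ 2), g = b ∨ g = k F * b := by
    intro g hg
    obtain ⟨i, hi⟩ := hgC g hg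
    obtain ⟨j, hj⟩ := hgC (k F) (mem_C0.2 W_mem_T)
    have heven : ∀ l : ℤ, Even l → pr τ ^ l ∈ Subgroup.zpowers (pr τ ^ 2) := by
      rintro l ⟨l', rfl⟩
      refine ⟨l', ?_⟩
      change (pr τ ^ 2) ^ l' = _
      rw [← zpow_natCast, ← zpow_mul]
      congr 1
      push_cast; ring
    rcases Int.even_or_odd i with hi' | hi'
    · exact ⟨g, by rw [hi]; exact heven i hi', Or.inl rfl⟩
    · have hjo : Odd j := by
        rw [← Int.not_even_iff_odd]
        intro he
        apply hkA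
        rw [hj]; exact heven j he
      refine ⟨(k F)⁻¹ * g, ?_, Or.inr (by rw [mul_inv_cancel_left])⟩
      rw [hi, hj, ← zpow_neg, ← zpow_add]
      exact heven _ (by
        rw [neg_add_eq_sub]
        exact hi'.sub_odd hjo)
  refine ⟨Subgroup.zpowers (pr τ ^ 2), k F, pr (S x y h), pr (R x y c h hc), ?_⟩
  constructor
  · exact k_ne_one
  · exact k_sq
  · intro u hu1 hu2
    exact JY.psl2_one_class _ _ (orderOf_eq_prime (by rw [pow_two, hu2]) hu1)
      (orderOf_eq_prime (by rw [pow_two, k_sq]) k_ne_one)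
  · have hle : C0 F ≤ Subgroup.centralizer ({k F} : Set _) := by
      intro g hg
      rw [Subgroup.mem_centralizer_singleton_iff]
      exact cent_k_le hg
    have hidx : ((C0 F).subgroupOf (Subgroup.centralizer ({k F} : Set _))).index = 2 := by
      rw [Subgroup.index_eq_two_iff]
      refine ⟨⟨pr (S x y h), ?_⟩, ?_⟩
      · rw [Subgroup.mem_centralizer_singleton_iff]
        unfold k
        rw [← map_mul, S_W, pr_neg, map_mul]
      · rintro ⟨g, hg⟩
        rw [Subgroup.mem_centralizer_singleton_iff] at hg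
        rcases cent_k hqm x y h hg with ⟨h3, h4⟩ | ⟨h3, h4⟩
        · exact Or.inr ⟨h3, h4⟩
        · exact Or.inl ⟨h4, h3⟩
    have h3 := Subgroup.card_mul_index ((C0 F).subgroupOf (Subgroup.centralizer ({k F} : Set _)))
    rw [hidx, Nat.card_congr (Subgroup.subgroupOfEquivOfLe hle).toEquiv, hcC] at h3
    rw [← h3]; ring
  · rw [Nat.card_zpowers, hoA]
  · infer_instance
  · intro a ha
    exact cent_k_le (hAC ha)
  · rw [Ne, pr_eq_one]
    have h3 := S_sq x y h
    have h5 : (1 : Matrix.SpecialLinearGroup (Fin 2) F) ≠ -1 := by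
      intro h6
      have := congrArg (fun y : Matrix.SpecialLinearGroup (Fin 2) F => y 0 0) h6
      simp only [one_00, neg_00] at this
      apply h2
      linear_combination this
    rintro (h4 | h4)
    · rw [h4, mul_one] at h3
      exact h5 h3
    · rw [h4, neg_mul_neg, mul_one] at h3
      exact h5 h3
  · rw [← map_mul, S_sq, pr_neg, map_one]
  · intro h4
    apply S_ne hqm x y h
    rw [← mem_C0, h4]
    exact mem_C0.2 W_mem_T
  · unfold k
    rw [← map_mul, S_W, pr_neg, map_mul]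
  · intro a ha
    exact pr_S_inv x y h (hAC ha)
  · intro a ha ha1 g hg
    exact hsplit g (comm_C0 hqm (hAC ha) ha1 (fun h4 => hkA (h4 ▸ ha)) hg)
  · intro g a ha ha1 hga
    exact conj_C0 hqm (hAC ha) (hAC hga)
  · rw [pow_three', ← map_mul, ← map_mul, R_cube, pr_neg, map_one]
  · rw [mul_inv_eq_iff_eq_mul]
    unfold k
    rw [← map_mul, R_W, map_mul]
  · rw [mul_inv_eq_iff_eq_mul]
    unfold k
    rw [← map_mul, R_S, map_mul, map_mul]

theorem KB.map {K K' : Type*} [Group K] [Group K'] {m : ℕ} {A : Subgroup K} {k s r : K} (D : KB m A k s r)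
    (e : K ≃* K') : KB m (A.map e.toMonoidHom) (e k) (e s) (e r) := by
  have hmem : ∀ {x : K}, e x ∈ A.map e.toMonoidHom ↔ x ∈ A := by
    intro x
    constructor
    · rintro ⟨y, hy, h⟩
      rw [← e.injective h]; exact hy
    · intro h; exact ⟨x, h, rfl⟩
  have heA : A ≃* A.map e.toMonoidHom := e.subgroupMap A
  constructor
  · rw [Ne, MulEquiv.map_eq_one_iff]; exact D.k1
  · rw [← map_mul, D.k2, map_one]
  · intro x hx1 hx2
    obtain ⟨x, rfl⟩ := e.surjective x
    obtain ⟨g, hg⟩ := D.kconj x (fun h => hx1 (by rw [h, map_one])) (by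
      apply e.injective; rw [map_mul, hx2, map_one])
    exact ⟨e g, by rw [← map_inv, ← map_mul, ← map_mul, hg]⟩
  · have h1 : Subgroup.centralizer ({e k} : Set K') = (Subgroup.centralizer ({k} : Set K)).map e.toMonoidHom := by
      ext x
      obtain ⟨x, rfl⟩ := e.surjective x
      rw [Subgroup.mem_centralizer_singleton_iff]
      constructor
      · intro h
        refine ⟨x, ?_, rfl⟩
        change x ∈ Subgroup.centralizer ({k} : Set K)
        rw [Subgroup.mem_centralizer_singleton_iff]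
        apply e.injective; rw [map_mul, map_mul]; exact h
      · rintro ⟨y, hy, h⟩
        change y ∈ Subgroup.centralizer ({k} : Set K) at hy
        rw [Subgroup.mem_centralizer_singleton_iff] at hy
        have h3 : y = x := e.injective h
        rw [← h3, ← map_mul, hy, map_mul]
    rw [h1]
    exact (Nat.card_congr (e.subgroupMap (Subgroup.centralizer ({k} : Set K))).toEquiv).symm.trans D.cardCk
  · exact (Nat.card_congr heA.toEquiv).symm.trans D.cardA
  · have := D.Acyc
    exact isCyclic_of_surjective heA heA.surjective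
  · rintro _ ⟨a, ha, rfl⟩
    change e a * e k = e k * e a
    rw [← map_mul, D.Ak a ha, map_mul]
  · rw [Ne, MulEquiv.map_eq_one_iff]; exact D.s1
  · rw [← map_mul, D.s2, map_one]
  · intro h; exact D.sk (e.injective h)
  · rw [← map_mul, D.sck, map_mul]
  · rintro _ ⟨a, ha, rfl⟩
    change e s * e a * (e s)⁻¹ = (e a)⁻¹
    rw [← map_inv, ← map_mul, ← map_mul, D.sA a ha, map_inv]
  · rintro _ ⟨a, ha, rfl⟩ ha1 g hg
    obtain ⟨g, rfl⟩ := e.surjective g
    change e g * e a = e a * e g at hg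
    obtain ⟨b, hb, hgb⟩ := D.Acent a ha (fun h => ha1 (by rw [h]; exact map_one e)) g (by
      apply e.injective; rw [map_mul, hg, map_mul])
    refine ⟨e b, hmem.2 hb, ?_⟩
    rcases hgb with h | h
    · left; rw [h]
    · right; rw [h, map_mul]
  · rintro g _ ⟨a, ha, rfl⟩ ha1 hga
    obtain ⟨g, rfl⟩ := e.surjective g
    change e g * e a * (e g)⁻¹ ∈ _ at hga
    change e g * e a * (e g)⁻¹ = e a ∨ e g * e a * (e g)⁻¹ = (e a)⁻¹
    rw [← map_inv, ← map_mul, ← map_mul] at hga ⊢
    rcases D.ATI g a ha (fun h => ha1 (by rw [h]; exact map_one e)) (hmem.1 hga) with h | h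
    · left; rw [h]
    · right; rw [h, map_inv]
  · rw [← map_pow, D.r3, map_one]
  · rw [← map_inv, ← map_mul, ← map_mul, D.rk]
  · rw [← map_inv, ← map_mul, ← map_mul, D.rs, map_mul]

/-- second half, transported -/
theorem half2 [Fintype F] {K : Type*} [Group K] (e : K ≃* Matrix.ProjectiveSpecialLinearGroup (Fin 2) F) {m : ℕ}
    (hqm : Fintype.card F + 1 = 4 * m) (hm : Odd m) : ∃ (A : Subgroup K) (k s r : K), KB m A k s r := by
  obtain ⟨A, k, s, r, D⟩ := kb_psl hqm hm
  exact ⟨_, _, _, _, D.map e.symm⟩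

end Cfsg.Agent.H23.PT
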