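import Cfsg.Agent.H23.PT
import Cfsg.Agent.H14.RtU
import Cfsg.Agent.H92.RtRR

/-!
`KD0` for `PSL₂(3^(2n+1))` (S2755, piece P1ab).
-/

set_option autoImplicit false

namespace Cfsg.Agent.H23.RtP1

open Cfsg.Agent.H92.Rt

theorem three_pow_mod (n : ℕ) : 3 ^ (2 * n + 1) % 8 = 3 := by
  rw [pow_succ, pow_mul, Nat.mul_mod, Nat.pow_mod]
  norm_num

/-- [P1ab] -/
theorem kd0_psl {F : Type*} [Field F] [Fintype F] (n : ℕ) (hn : 1 ≤ n) (hF : Fintype.card F = 3 ^ (2 * n + 1))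
    {K : Type*} [Group K] (e : K ≃* Matrix.ProjectiveSpecialLinearGroup (Fin 2) F) :
    ∃ (m : ℕ) (U A : Subgroup K) (k s r : K), KD0 (3 ^ (2 * n + 1)) m U A k s r := by
  obtain ⟨m, hqm, hm⟩ : ∃ m, Fintype.card F + 1 = 4 * m ∧ Odd m := by
    have h1 := three_pow_mod n
    rw [← hF] at h1
    refine ⟨(Fintype.card F + 1) / 4, by omega, ?_⟩
    rw [Nat.odd_iff]; omega
  obtain ⟨U, h1, h2, h3, h4, h5, h6, h7, h8, h9, h10, h11, h12, h13, h14⟩ := H14.RtU.half1 n hn hF e m hqm hm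
  obtain ⟨A, k, s, r, D⟩ := H23.PT.half2 e hqm hm
  exact ⟨m, U, A, k, s, r, h1, h2, h3, h4, h5, h6, h7, h8, h9, h10, h11, h12, h13, h14, D.k1, D.k2, D.kconj, D.cardCk,
    D.cardA, D.Acyc, D.Ak, D.s1, D.s2, D.sk, D.sck, D.sA, D.Acent, D.ATI, D.r3, D.rk, D.rs⟩

end Cfsg.Agent.H23.RtP1
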