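import Cfsg.Agent.H92.RtRR
import Cfsg.Agent.H69.AbelSylow
import Cfsg.Agent.H62.W2
import Cfsg.Agent.JY.RtRee

/-!
Groups of Ree type without sections `S₃`: the data `RD` (S2755, piece P2).
-/

set_option autoImplicit false

namespace Cfsg.Agent.H23.RtP2

open Cfsg Cfsg.Agent.H92.Rt

universe u

section ext2

variable {G : Type*} [Group G]

/-- adjoin a commuting involution -/
def ext2 (H : Subgroup G) (t : G) (ht2 : t * t = 1) (hc : ∀ y ∈ H, t * y = y * t) : Subgroup G where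
  carrier := {g | ∃ y ∈ H, g = y ∨ g = t * y}
  one_mem' := ⟨1, H.one_mem, Or.inl rfl⟩
  mul_mem' := by
    rintro a b ⟨y, hy, ha⟩ ⟨z, hz, hb⟩
    refine ⟨y * z, H.mul_mem hy hz, ?_⟩
    rcases ha with ha | ha <;> rcases hb with hb | hb <;> rw [ha, hb]
    · left; rfl
    · right; rw [← mul_assoc, ← hc y hy, mul_assoc]
    · right; rw [mul_assoc]
    · left
      rw [mul_assoc, ← mul_assoc y, ← hc y hy, mul_assoc t y, ← mul_assoc, ht2, one_mul]
  inv_mem' := by
    rintro a ⟨y, hy, ha⟩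
    refine ⟨y⁻¹, H.inv_mem hy, ?_⟩
    rcases ha with rfl | rfl
    · left; rfl
    · right
      rw [mul_inv_rev, inv_eq_of_mul_eq_one_right ht2, hc _ (H.inv_mem hy)]

theorem mem_ext2 {H : Subgroup G} {t : G} {ht2 : t * t = 1} {hc : ∀ y ∈ H, t * y = y * t} {g : G} :
    g ∈ ext2 H t ht2 hc ↔ ∃ y ∈ H, g = y ∨ g = t * y := Iff.rfl

theorem ext2_sq {H : Subgroup G} {t : G} {ht2 : t * t = 1} {hc : ∀ y ∈ H, t * y = y * t} (hH : ∀ y ∈ H, y * y = 1)
    {g : G} (hg : g ∈ ext2 H t ht2 hc) : g * g = 1 := by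
  obtain ⟨y, hy, rfl | rfl⟩ := hg
  · exact hH _ hy
  · rw [mul_assoc, ← mul_assoc y, ← hc y hy, mul_assoc t y, ← mul_assoc, ht2, one_mul, hH y hy]

theorem card_two_mul [Finite G] {H E : Subgroup G} {t : G} (ht2 : t * t = 1) (htH : t ∉ H)
    (hc : ∀ y ∈ H, t * y = y * t) (hE : ∀ g, g ∈ E ↔ ∃ y ∈ H, g = y ∨ g = t * y) :
    Nat.card E = 2 * Nat.card H := by
  have hle : H ≤ E := fun y hy => (hE y).2 ⟨y, hy, Or.inl rfl⟩
  have htE : t ∈ E := (hE t).2 ⟨1, H.one_mem, Or.inr (mul_one t).symm⟩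
  have hidx : (H.subgroupOf E).index = 2 := by
    rw [Subgroup.index_eq_two_iff]
    refine ⟨⟨t, htE⟩, ?_⟩
    rintro ⟨b, hb⟩
    obtain ⟨y, hy, rfl | rfl⟩ := (hE b).1 hb
    · refine Or.inr ⟨hy, fun h => htH ?_⟩
      exact (H.mul_mem_cancel_left hy).1 h
    · refine Or.inl ⟨?_, fun h => htH ?_⟩
      · change t * y * t ∈ H
        rw [mul_assoc, ← hc y hy, ← mul_assoc, ht2, one_mul]
        exact hy
      · exact (H.mul_mem_cancel_right hy).1 h
  have h3 := Subgroup.card_mul_index (H.subgroupOf E)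
  rw [hidx, Nat.card_congr (Subgroup.subgroupOfEquivOfLe hle).toEquiv] at h3
  rw [← h3, mul_comm]

end ext2

theorem ncard_four {G : Type*} {a b c d : G} (hab : a ≠ b) (hac : a ≠ c) (had : a ≠ d) (hbc : b ≠ c) (hbd : b ≠ d)
    (hcd : c ≠ d) : ({a, b, c, d} : Set G).ncard = 4 := by
  rw [Set.ncard_insert_of_notMem, Set.ncard_insert_of_notMem, Set.ncard_pair hcd]
  · simp [hbc, hbd]
  · simp [hab, hac, had]

section main

variable {G : Type u} [Group G] [Finite G]

/-- core data: the elementary abelian group of order eight -/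
structure E8 (E : Subgroup G) (t k s r : G) : Prop where
  card : Nat.card E = 8
  sq : ∀ x ∈ E, x * x = 1
  mem : ∀ x, x ∈ E ↔ (x = 1 ∨ x = k ∨ x = s ∨ x = k * s) ∨ (x = t ∨ x = t * k ∨ x = t * s ∨ x = t * (k * s))
  t2 : t * t = 1
  k2 : k * k = 1
  s2 : s * s = 1
  tk : t * k = k * t
  ts : t * s = s * t
  sk : s * k = k * s
  rt : r * t = t * r
  rk : r * k * r⁻¹ = s
  rs : r * s * r⁻¹ = k * s
  k1 : k ≠ 1
  s1 : s ≠ 1
  t1 : t ≠ 1
  hsk : s ≠ k
  tkn : t ≠ k
  tsn : t ≠ s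
  tks : t ≠ k * s

theorem exists_E8 {t : G} {K : Subgroup G} {k s r : K} (t1 : t ≠ 1) (t2 : t * t = 1) (tK : t ∉ K)
    (hc : ∀ y ∈ K, t * y = y * t) (k1 : k ≠ 1) (k2 : k * k = 1) (s1 : s ≠ 1) (s2 : s * s = 1) (hsk : s ≠ k)
    (sck : s * k = k * s) (rk : r * k * r⁻¹ = s) (rs : r * s * r⁻¹ = k * s) :
    ∃ E : Subgroup G, E8 E t k s r := by
  have k2' : (k : G) * k = 1 := congrArg Subtype.val k2
  have s2' : (s : G) * s = 1 := congrArg Subtype.val s2
  have sck' : (s : G) * k = k * s := congrArg Subtype.val sck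
  have k1' : (k : G) ≠ 1 := fun h => k1 (Subtype.ext h)
  have s1' : (s : G) ≠ 1 := fun h => s1 (Subtype.ext h)
  have hsk' : (s : G) ≠ k := fun h => hsk (Subtype.ext h)
  let E0 : Subgroup G := ext2 ⊥ k k2' (by intro y hy; rw [Subgroup.mem_bot.1 hy]; simp)
  have h0 : ∀ g, g ∈ E0 ↔ (g = 1 ∨ g = k) := by
    intro g
    constructor
    · rintro ⟨y, hy, h⟩
      rw [Subgroup.mem_bot.1 hy, mul_one] at h
      exact h
    · rintro (h | h)
      · exact ⟨1, Subgroup.mem_bot.2 rfl, Or.inl h⟩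
      · exact ⟨1, Subgroup.mem_bot.2 rfl, Or.inr (by rw [h, mul_one])⟩
  have c0 : Nat.card E0 = 2 := by
    rw [card_two_mul (H := ⊥) k2' (by rw [Subgroup.mem_bot]; exact k1')
      (by intro y hy; rw [Subgroup.mem_bot.1 hy]; simp) (fun g => Iff.rfl), Subgroup.card_bot]
  have hcs : ∀ y ∈ E0, (s : G) * y = y * s := by
    intro y hy
    rcases (h0 y).1 hy with rfl | rfl
    · simp
    · exact sck'
  let E1 : Subgroup G := ext2 E0 s s2' hcs
  have h1 : ∀ g, g ∈ E1 ↔ (g = 1 ∨ g = k ∨ g = s ∨ g = k * s) := by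
    intro g
    constructor
    · rintro ⟨y, hy, h⟩
      rcases (h0 y).1 hy with rfl | rfl
      · rw [mul_one] at h; tauto
      · rw [sck'] at h; tauto
    · rintro (h | h | h | h)
      · exact ⟨1, E0.one_mem, Or.inl h⟩
      · exact ⟨k, (h0 _).2 (Or.inr rfl), Or.inl h⟩
      · exact ⟨1, E0.one_mem, Or.inr (by rw [h, mul_one])⟩
      · exact ⟨k, (h0 _).2 (Or.inr rfl), Or.inr (by rw [h, sck'])⟩
  have c1 : Nat.card E1 = 4 := by
    rw [card_two_mul (H := E0) s2' (by rw [h0]; tauto) hcs (fun g => Iff.rfl), c0]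
  have hE1K : ∀ y ∈ E1, y ∈ K := by
    intro y hy
    rcases (h1 y).1 hy with h | h | h | h <;> rw [h]
    · exact K.one_mem
    · exact k.2
    · exact s.2
    · exact K.mul_mem k.2 s.2
  have hct : ∀ y ∈ E1, t * y = y * t := fun y hy => hc y (hE1K y hy)
  let E : Subgroup G := ext2 E1 t t2 hct
  have h2 : ∀ x, x ∈ E ↔ (x = 1 ∨ x = k ∨ x = s ∨ x = k * s) ∨ (x = t ∨ x = t * k ∨ x = t * s ∨ x = t * (k * s)) := by
    intro x
    constructor
    · rintro ⟨y, hy, h⟩
      rcases (h1 y).1 hy with rfl | rfl | rfl | rfl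
      · rw [mul_one] at h; tauto
      · tauto
      · tauto
      · tauto
    · rintro (h | h | h | h | h)
      · exact ⟨x, (h1 x).2 h, Or.inl rfl⟩
      · exact ⟨1, E1.one_mem, Or.inr (by rw [h, mul_one])⟩
      · exact ⟨k, (h1 _).2 (by tauto), Or.inr h⟩
      · exact ⟨s, (h1 _).2 (by tauto), Or.inr h⟩
      · exact ⟨k * s, (h1 _).2 (by tauto), Or.inr h⟩
  refine ⟨E, ?_⟩
  constructor
  · rw [card_two_mul (H := E1) t2 (fun h => tK (hE1K _ h)) hct (fun g => Iff.rfl), c1]
  · intro x hx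
    refine ext2_sq ?_ hx
    intro y hy
    refine ext2_sq ?_ hy
    intro y hy
    refine ext2_sq ?_ hy
    intro y hy
    rw [Subgroup.mem_bot.1 hy, mul_one]
  · exact h2
  · exact t2
  · exact k2'
  · exact s2'
  · exact hc _ k.2
  · exact hc _ s.2
  · exact sck'
  · exact (hc _ r.2).symm
  · exact congrArg Subtype.val rk
  · exact congrArg Subtype.val rs
  · exact k1'
  · exact s1'
  · exact t1
  · exact hsk'
  · exact fun h => tK (h ▸ k.2)
  · exact fun h => tK (h ▸ s.2)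
  · exact fun h => tK (h ▸ K.mul_mem k.2 s.2)

omit [Finite G] in
theorem E8.comm {E : Subgroup G} {t k s r : G} (D : E8 E t k s r) : ∀ x ∈ E, ∀ y ∈ E, x * y = y * x := by
  intro x hx y hy
  have h1 := D.sq _ (E.mul_mem hx hy)
  have h2 := D.sq x hx
  have h3 := D.sq y hy
  calc x * y = x * (x * y * (x * y)) * y := by rw [h1, mul_one]
    _ = (x * x) * y * x * (y * y) := by group
    _ = y * x := by rw [h2, h3, one_mul, mul_one]

omit [Finite G] in
theorem hfac {c : ℕ} (hc : Odd c) (hG : Nat.card G = 8 * c) : 2 ^ (Nat.card G).factorization 2 = 8 := by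
  have hc0 : c ≠ 0 := by rintro rfl; exact absurd hc (by decide)
  have h1 : (Nat.card G).factorization 2 = 3 := by
    have h2 : c.factorization 2 = 0 :=
      Nat.factorization_eq_zero_of_not_dvd (fun h => by rw [Nat.odd_iff] at hc; omega)
    rw [hG, Nat.factorization_mul (by norm_num) hc0, Finsupp.add_apply, h2, add_zero,
      show (8 : ℕ) = 2 ^ 3 by norm_num, Nat.Prime.factorization_pow Nat.prime_two]
    simp
  rw [h1]; norm_num

theorem t_not_fixed [IsSimpleGroup G] (hna : ¬ IsMulCommutative G) {E : Subgroup G} {t k s r : G} (D : E8 E t k s r)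
    {c : ℕ} (hc : Odd c) (hG : Nat.card G = 8 * c) :
    ∃ n ∈ Subgroup.normalizer (E : Set G), n * t * n⁻¹ ≠ t := by
  have : Fact (Nat.Prime 2) := ⟨Nat.prime_two⟩
  by_contra hcon
  push Not at hcon
  let S : Sylow 2 G := Sylow.ofCard E (by rw [D.card, hfac hc hG])
  have hab : IsMulCommutative (S : Subgroup G) := ⟨⟨fun a b => Subtype.ext (D.comm a a.2 b b.2)⟩⟩
  have htE : t ∈ E := (D.mem t).2 (by tauto)
  have h1 : ∀ g : G, g * t * g⁻¹ * t⁻¹ ∈ pPrimeCore 2 G := H69.abelian_sylow_zstar S hab htE hcon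
  have hN : (pPrimeCore 2 G).Normal := inferInstance
  rcases hN.eq_bot_or_eq_top with h | h
  · have hcen : t ∈ Subgroup.center G := by
      rw [Subgroup.mem_center_iff]
      intro g
      have h2 := h1 g
      rw [h, Subgroup.mem_bot, mul_inv_eq_one, mul_inv_eq_iff_eq_mul] at h2
      exact h2
    rcases (inferInstance : (Subgroup.center G).Normal).eq_bot_or_eq_top with h2 | h2
    · rw [h2, Subgroup.mem_bot] at hcen
      exact D.t1 hcen
    · apply hna
      refine ⟨⟨fun a b => ?_⟩⟩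
      have : b ∈ Subgroup.center G := by rw [h2]; trivial
      exact (Subgroup.mem_center_iff.1 this) a
  · have h2 := Solv.pPrimeCore_card_coprime (G := G) 2
    rw [h, Subgroup.card_top, hG, Nat.coprime_two_right, Nat.odd_iff] at h2
    omega

omit [Finite G] in
theorem E8.rks {E : Subgroup G} {t k s r : G} (D : E8 E t k s r) : r * (k * s) * r⁻¹ = k := by
  have h1 : r * (k * s) * r⁻¹ = (r * k * r⁻¹) * (r * s * r⁻¹) := by group
  rw [h1, D.rk, D.rs, ← mul_assoc, D.sk, mul_assoc, D.s2, mul_one]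

omit [Finite G] in
theorem E8.conj_t {E : Subgroup G} {t k s r : G} (D : E8 E t k s r) (x : G) :
    r * (t * x) * r⁻¹ = t * (r * x * r⁻¹) := by
  rw [← mul_assoc r, D.rt, mul_assoc t r x, mul_assoc]

theorem E8.r_mem {E : Subgroup G} {t k s r : G} (D : E8 E t k s r) : r ∈ Subgroup.normalizer (E : Set G) := by
  apply Subgroup.mem_normalizer_fintype
  intro x hx
  have hx' := (D.mem x).1 hx
  apply (D.mem _).2
  rcases hx' with (rfl | rfl | rfl | rfl) | (rfl | rfl | rfl | rfl)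
  · left; left; simp
  · rw [D.rk]; tauto
  · rw [D.rs]; tauto
  · rw [D.rks]; tauto
  · have : r * x * r⁻¹ = x := by rw [D.rt, mul_inv_cancel_right]
    rw [this]; tauto
  · rw [D.conj_t, D.rk]; tauto
  · rw [D.conj_t, D.rs]; tauto
  · rw [D.conj_t, D.rks]; tauto

omit [Finite G] in
/-- an `r`-invariant subset of odd size containing `t` properly is everything -/
theorem orbit_all {E : Subgroup G} {t k s r : G} (D : E8 E t k s r) (O : Set G) (htO : t ∈ O) (hodd : Odd O.ncard)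
    (hOE : ∀ y ∈ O, y ∈ E ∧ y ≠ 1) (hrO : ∀ y ∈ O, r * y * r⁻¹ ∈ O) (hne : ∃ y ∈ O, y ≠ t) {x : G} (hx : x ∈ E)
    (hx1 : x ≠ 1) : x ∈ O := by
  have a1 : k ∈ O → s ∈ O := by intro h; have := hrO _ h; rwa [D.rk] at this
  have a2 : s ∈ O → k * s ∈ O := by intro h; have := hrO _ h; rwa [D.rs] at this
  have a3 : k * s ∈ O → k ∈ O := by intro h; have := hrO _ h; rwa [D.rks] at this
  have b1 : t * k ∈ O → t * s ∈ O := by intro h; have := hrO _ h; rwa [D.conj_t, D.rk] at this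
  have b2 : t * s ∈ O → t * (k * s) ∈ O := by intro h; have := hrO _ h; rwa [D.conj_t, D.rs] at this
  have b3 : t * (k * s) ∈ O → t * k ∈ O := by intro h; have := hrO _ h; rwa [D.conj_t, D.rks] at this
  have hks : k ≠ k * s := fun h => D.s1 (left_eq_mul.1 h)
  have hsks : s ≠ k * s := fun h => D.k1 (right_eq_mul.1 h)
  have hks1 : k * s ≠ 1 := by
    intro h
    exact D.hsk (by rw [eq_inv_of_mul_eq_one_right h, inv_eq_of_mul_eq_one_right D.k2])
  have hcase : ∀ y ∈ O, k ∈ O ∨ t * k ∈ O ∨ y = t := by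
    intro y hy
    obtain ⟨hyE, hy1⟩ := hOE y hy
    rcases (D.mem y).1 hyE with (h | h | h | h) | (h | h | h | h)
    · exact absurd h hy1
    · left; exact h ▸ hy
    · left; exact a3 (a2 (h ▸ hy))
    · left; exact a3 (h ▸ hy)
    · right; right; exact h
    · right; left; exact h ▸ hy
    · right; left; exact b3 (b2 (h ▸ hy))
    · right; left; exact b3 (h ▸ hy)
  have hkO : k ∈ O := by
    by_contra hk
    obtain ⟨y, hy, hyt⟩ := hne
    have htk : t * k ∈ O := by
      rcases hcase y hy with h | h | h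
      · exact absurd h hk
      · exact h
      · exact absurd h hyt
    have h1 : O = {t, t * k, t * s, t * (k * s)} := by
      ext y
      simp only [Set.mem_insert_iff, Set.mem_singleton_iff]
      constructor
      · intro hy
        obtain ⟨hyE, hy1⟩ := hOE y hy
        rcases (D.mem y).1 hyE with (h | h | h | h) | h
        · exact absurd h hy1
        · exact absurd (h ▸ hy) hk
        · exact absurd (a3 (a2 (h ▸ hy))) hk
        · exact absurd (a3 (h ▸ hy)) hk
        · exact h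
      · rintro (h | h | h | h) <;> rw [h]
        · exact htO
        · exact htk
        · exact b1 htk
        · exact b2 (b1 htk)
    rw [h1, ncard_four (fun h => D.k1 (left_eq_mul.1 h)) (fun h => D.s1 (left_eq_mul.1 h))
      (fun h => hks1 (left_eq_mul.1 h)) (fun h => D.hsk.symm (mul_left_cancel h))
      (fun h => hks (mul_left_cancel h)) (fun h => hsks (mul_left_cancel h))] at hodd
    exact absurd hodd (by decide)
  have htkO : t * k ∈ O := by
    by_contra htk
    have h1 : O = {t, k, s, k * s} := by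
      ext y
      simp only [Set.mem_insert_iff, Set.mem_singleton_iff]
      constructor
      · intro hy
        obtain ⟨hyE, hy1⟩ := hOE y hy
        rcases (D.mem y).1 hyE with (h | h | h | h) | (h | h | h | h)
        · exact absurd h hy1
        · exact Or.inr (Or.inl h)
        · exact Or.inr (Or.inr (Or.inl h))
        · exact Or.inr (Or.inr (Or.inr h))
        · exact Or.inl h
        · exact absurd (h ▸ hy) htk
        · exact absurd (b3 (b2 (h ▸ hy))) htk
        · exact absurd (b3 (h ▸ hy)) htk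
      · rintro (h | h | h | h) <;> rw [h]
        · exact htO
        · exact hkO
        · exact a1 hkO
        · exact a2 (a1 hkO)
    rw [h1, ncard_four D.tkn D.tsn D.tks D.hsk.symm hks hsks] at hodd
    exact absurd hodd (by decide)
  rcases (D.mem x).1 hx with (h | h | h | h) | (h | h | h | h) <;> rw [h]
  · exact absurd h hx1
  · exact hkO
  · exact a1 hkO
  · exact a2 (a1 hkO)
  · exact htO
  · exact htkO
  · exact b1 htkO
  · exact b2 (b1 htkO)

/-- all involutions of `E` are conjugate in the normalizer -/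
theorem trans_E [IsSimpleGroup G] (hna : ¬ IsMulCommutative G) {E : Subgroup G} {t k s r : G} (D : E8 E t k s r)
    {c : ℕ} (hc : Odd c) (hG : Nat.card G = 8 * c) {x : G} (hx : x ∈ E) (hx1 : x ≠ 1) :
    ∃ n ∈ Subgroup.normalizer (E : Set G), n * t * n⁻¹ = x := by
  obtain ⟨n₀, hn₀, hn₀t⟩ := t_not_fixed hna D hc hG
  let act : MulAction (Subgroup.normalizer (E : Set G)) G :=
    MulAction.compHom G ((MulAut.conj : G →* MulAut G).comp (Subgroup.normalizer (E : Set G)).subtype)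
  have hsmul : ∀ (n : Subgroup.normalizer (E : Set G)) (y : G), n • y = (n : G) * y * (n : G)⁻¹ := fun _ _ => rfl
  have hmem : ∀ y, y ∈ MulAction.orbit (Subgroup.normalizer (E : Set G)) t ↔
      ∃ n ∈ Subgroup.normalizer (E : Set G), n * t * n⁻¹ = y := by
    intro y
    constructor
    · rintro ⟨n, hn⟩; exact ⟨n, n.2, hn⟩
    · rintro ⟨n, hn, h⟩; exact ⟨⟨n, hn⟩, h⟩
  set O := MulAction.orbit (Subgroup.normalizer (E : Set G)) t with hO
  have htE : t ∈ E := (D.mem t).2 (by tauto)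
  have htO : t ∈ O := (hmem t).2 ⟨1, one_mem _, by simp⟩
  have hodd : Odd O.ncard := by
    rw [hO, ← MulAction.index_stabilizer]
    have h1 : E.subgroupOf (Subgroup.normalizer (E : Set G)) ≤
        MulAction.stabilizer (Subgroup.normalizer (E : Set G)) t := by
      intro y hy
      rw [MulAction.mem_stabilizer_iff, hsmul, D.comm (y : G) hy t htE, mul_inv_cancel_right]
    have h2 := Subgroup.index_dvd_of_le h1
    have h3 : E.relIndex (Subgroup.normalizer (E : Set G)) * (Subgroup.normalizer (E : Set G)).index = E.index :=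
      Subgroup.relIndex_mul_index Subgroup.le_normalizer
    have h4 : E.index = c := by
      have h5 := E.card_mul_index
      rw [D.card, hG] at h5
      exact Nat.eq_of_mul_eq_mul_left (by norm_num) h5
    rw [← h4] at hc
    exact (hc.of_dvd_nat (Dvd.intro _ h3)).of_dvd_nat h2
  have hOE : ∀ y ∈ O, y ∈ E ∧ y ≠ 1 := by
    intro y hy
    obtain ⟨n, hn, rfl⟩ := (hmem y).1 hy
    refine ⟨(Subgroup.mem_normalizer_iff.1 hn t).1 htE, fun h => D.t1 ?_⟩
    rw [mul_inv_eq_one] at h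
    exact mul_eq_left.1 h
  have hrO : ∀ y ∈ O, r * y * r⁻¹ ∈ O := by
    intro y hy
    obtain ⟨n, hn, rfl⟩ := (hmem y).1 hy
    refine (hmem _).2 ⟨r * n, mul_mem D.r_mem hn, ?_⟩
    group
  exact (hmem x).1 (orbit_all D O htO hodd hOE hrO ⟨_, (hmem _).2 ⟨n₀, hn₀, rfl⟩, hn₀t⟩ hx hx1)

/-- Sylow 2-subgroups are conjugates of `E` -/
theorem sylow_conj {E : Subgroup G} {t k s r : G} (D : E8 E t k s r) {c : ℕ} (hc : Odd c)
    (hG : Nat.card G = 8 * c) (S : Sylow 2 G) : ∃ g : G, ∀ x ∈ S, g * x * g⁻¹ ∈ E := by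
  have : Fact (Nat.Prime 2) := ⟨Nat.prime_two⟩
  let S₀ : Sylow 2 G := Sylow.ofCard E (by rw [D.card, hfac (G := G) hc hG])
  obtain ⟨g, hg⟩ := MulAction.exists_smul_eq G S S₀
  refine ⟨g, fun x hx => ?_⟩
  have h1 : g * x * g⁻¹ ∈ (g • S : Sylow 2 G) := by
    exact Subgroup.smul_mem_pointwise_smul x (MulAut.conj g) (S : Subgroup G) hx
  rw [hg] at h1
  exact h1

theorem all_conj [IsSimpleGroup G] (hna : ¬ IsMulCommutative G) {E : Subgroup G} {t k s r : G} (D : E8 E t k s r)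
    {c : ℕ} (hc : Odd c) (hG : Nat.card G = 8 * c) (u : G) (hu1 : u ≠ 1) (hu2 : u * u = 1) : ∃ g : G, g * u * g⁻¹ = t := by
  have : Fact (Nat.Prime 2) := ⟨Nat.prime_two⟩
  have hp : IsPGroup 2 (Subgroup.zpowers u) := by
    rw [IsPGroup.iff_card]
    exact ⟨1, by rw [Nat.card_zpowers, orderOf_eq_prime (by rw [pow_two, hu2]) hu1, pow_one]⟩
  obtain ⟨S, hS⟩ := hp.exists_le_sylow
  obtain ⟨g, hg⟩ := sylow_conj D hc hG S
  obtain ⟨n, -, hn⟩ := trans_E hna D hc hG (hg u (hS (Subgroup.mem_zpowers u)))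
    (fun h => hu1 (by rw [mul_inv_eq_one] at h; exact mul_eq_left.1 h))
  refine ⟨n⁻¹ * g, ?_⟩
  calc n⁻¹ * g * u * (n⁻¹ * g)⁻¹ = n⁻¹ * (g * u * g⁻¹) * n := by group
    _ = t := by rw [← hn]; group

/-- [P2], relative to the facts about `K` -/
theorem rd_of_ree' (hR : Cfsg.IsReeType G) (h3 : ¬ Cfsg.Involves (Equiv.Perm (Fin 3)) G)
    (hkd : ∀ (K : Subgroup G) (F : Type) [Field F] [Fintype F] (n : ℕ), 1 ≤ n → Fintype.card F = 3 ^ (2 * n + 1) →
      (K ≃* Matrix.ProjectiveSpecialLinearGroup (Fin 2) F) →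
      ∃ (m : ℕ) (U A : Subgroup K) (k s r : K), KD (3 ^ (2 * n + 1)) m U A k s r) :
    ∃ (t : G) (K : Subgroup G) (q m : ℕ) (U A : Subgroup K) (k s r : K), RD t K q m U A k s r := by
  have : Fact (Nat.Prime 2) := ⟨Nat.prime_two⟩
  obtain ⟨hs, hna, t, K, n, hn, ht, hodd, ⟨hZ, hK, hcomm, hinf, hsup⟩, F, _, _, hF, ⟨e⟩⟩ := hR
  obtain ⟨m, U, A, k, s, r, D⟩ := hkd K F n hn hF e
  have t1 : t ≠ 1 := by rintro rfl; simp at ht
  have t2 : t * t = 1 := by rw [← pow_two, ← ht, pow_orderOf_eq_one]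
  have tz : t ∈ Subgroup.zpowers t := Subgroup.mem_zpowers t
  have tK : t ∉ K := fun h => t1 (by have := Subgroup.mem_inf.2 ⟨tz, h⟩; rwa [hinf, Subgroup.mem_bot] at this)
  have hc : ∀ y ∈ K, t * y = y * t := fun y hy => hcomm t tz y hy
  have hCe : Subgroup.centralizer ({t} : Set G) = ext2 K t t2 hc := by
    rw [← hsup]
    apply le_antisymm
    · refine sup_le ?_ (fun y hy => ⟨y, hy, Or.inl rfl⟩)
      rw [Subgroup.zpowers_le]
      exact ⟨1, K.one_mem, Or.inr (mul_one t).symm⟩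
    · rintro g ⟨y, hy, h | h⟩ <;> rw [h]
      · exact (le_sup_right : K ≤ Subgroup.zpowers t ⊔ K) hy
      · exact mul_mem ((le_sup_left : Subgroup.zpowers t ≤ Subgroup.zpowers t ⊔ K) tz)
          ((le_sup_right : K ≤ Subgroup.zpowers t ⊔ K) hy)
  have hcent : ∀ g : G, g * t = t * g ↔ ∃ y : K, g = (y : G) ∨ g = t * (y : G) := by
    intro g
    rw [← Subgroup.mem_centralizer_singleton_iff, hCe, mem_ext2]
    constructor
    · rintro ⟨y, hy, h⟩; exact ⟨⟨y, hy⟩, h⟩
    · rintro ⟨y, h⟩; exact ⟨y, y.2, h⟩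
  have hcC : Nat.card (Subgroup.centralizer ({t} : Set G)) = 2 * Nat.card K := by
    apply card_two_mul t2 tK hc
    intro g
    rw [hCe, mem_ext2]
  have hGc : ∃ c, Odd c ∧ Nat.card G = 8 * c := by
    have h1 := Subgroup.card_mul_index (Subgroup.centralizer ({t} : Set G))
    rw [hcC] at h1
    have h2 := D.cardK
    have h4 := D.qm
    obtain ⟨m', hm'⟩ := D.modd
    have h5 : (3 ^ (2 * n + 1) - 1 : ℕ) = 2 * (2 * m - 1) := by omega
    have hq : Odd (3 ^ (2 * n + 1) : ℕ) := Odd.pow (by decide)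
    refine ⟨3 ^ (2 * n + 1) * (2 * m - 1) * m * (Subgroup.centralizer ({t} : Set G)).index, ?_, ?_⟩
    · refine ((hq.mul ?_).mul D.modd).mul hodd
      rw [Nat.odd_iff]; omega
    · rw [← h1, mul_comm 2, h2, h4, h5]
      ring
  obtain ⟨c, hcodd, hG⟩ := hGc
  obtain ⟨E, DE⟩ := exists_E8 t1 t2 tK hc D.k1 D.k2 D.s1 D.s2 D.sk D.sck D.rk D.rs
  refine ⟨t, K, 3 ^ (2 * n + 1), m, U, A, k, s, r, ?_⟩
  constructor
  · exact D
  · exact t1
  · exact t2
  · exact tK
  · exact hcent
  · intro S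
    refine ⟨by rw [S.card_eq_multiplicity, hfac (G := G) hcodd hG], ?_⟩
    obtain ⟨g, hg⟩ := sylow_conj DE hcodd hG S
    intro x hx y hy
    have e1 := DE.comm _ (hg x hx) _ (hg y hy)
    have e2 := DE.sq _ (hg x hx)
    constructor
    · have e3 : g * (x * y) * g⁻¹ = g * (y * x) * g⁻¹ := by
        calc g * (x * y) * g⁻¹ = (g * x * g⁻¹) * (g * y * g⁻¹) := by group
          _ = (g * y * g⁻¹) * (g * x * g⁻¹) := e1
          _ = g * (y * x) * g⁻¹ := by group
      exact mul_left_cancel (mul_right_cancel e3)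
    · have e3 : g * (x * x) * g⁻¹ = g * 1 * g⁻¹ := by
        calc g * (x * x) * g⁻¹ = (g * x * g⁻¹) * (g * x * g⁻¹) := by group
          _ = 1 := e2
          _ = g * 1 * g⁻¹ := by group
      exact mul_left_cancel (mul_right_cancel e3)
  · exact fun u hu1 hu2 => all_conj hna DE hcodd hG u hu1 hu2
  · intro u y hu1 hu2 hy3 huy
    by_contra hy1
    exact h3 (H62.involves_S3_of_inverted ⟨1, by rw [orderOf_eq_prime (by rw [pow_two, hu2]) hu1, pow_one]⟩ hy3 hy1 huy)

end main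

end Cfsg.Agent.H23.RtP2
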