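import Cfsg.Agent.H23.RtP1
import Cfsg.Agent.H23.RtP2
import Cfsg.Agent.H84.RtSum

/-!
Groups of Ree type without sections `S₃` (S2755, piece P2): final form.
-/

set_option autoImplicit false

namespace Cfsg.Agent.H23.RtP2

open Cfsg Cfsg.Agent.H92.Rt

/-- `KD` for `PSL₂(3^(2n+1))` -/
theorem kd_psl {F : Type*} [Field F] [Fintype F] (n : ℕ) (hn : 1 ≤ n) (hF : Fintype.card F = 3 ^ (2 * n + 1))
    {K : Type*} [Group K] (e : K ≃* Matrix.ProjectiveSpecialLinearGroup (Fin 2) F) :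
    ∃ (m : ℕ) (U A : Subgroup K) (k s r : K), KD (3 ^ (2 * n + 1)) m U A k s r := by
  obtain ⟨m, U, A, k, s, r, D⟩ := H23.RtP1.kd0_psl n hn hF e
  have : Finite K := Finite.of_equiv _ e.symm.toEquiv
  exact ⟨m, U, A, k, s, r, D.q27, D.q3, D.qm, D.modd, D.cardK, D.cardU, D.Ucomm, D.Uexp, D.Ucent, D.cardNU, D.Bcomm,
    D.UTI, D.Uconj, D.Ucl, D.k1, D.k2, D.kconj, D.cardCk, D.cardA, D.Acyc, D.Ak, D.s1, D.s2, D.sk, D.sck, D.sA, D.Acent,
    D.ATI, D.r3, D.rk, D.rs, fun f h1 h2 => H84.RtSum.sumOdd_of D f h1 h2⟩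

/-- [P2] -/
theorem rd_of_ree {G : Type*} [Group G] [Finite G] (hR : Cfsg.IsReeType G)
    (h3 : ¬ Cfsg.Involves (Equiv.Perm (Fin 3)) G) :
    ∃ (t : G) (K : Subgroup G) (q m : ℕ) (U A : Subgroup K) (k s r : K), RD t K q m U A k s r :=
  rd_of_ree' hR h3 (fun _ _ _ _ n hn hF e => kd_psl n hn hF e)

end Cfsg.Agent.H23.RtP2
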